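import Mathlib
import Cfsg.Agent.Lib.Stein.Pre

/-! The root groups of a Moufang hexagon: definitions and basic tools. -/

set_option autoImplicit false

open scoped commutatorElement

namespace H80.FS6

open H63.St

/-- The root groups of a Moufang hexagon. -/
structure W6 (G : Type*) [Group G] where
  /-- the root groups -/
  U : ZMod 12 → Subgroup G
  cm : ∀ i j, 0 < (j - i).val → (j - i).val < 6 → ∀ x ∈ U i, ∀ y ∈ U j,
    ⁅x, y⁆ ∈ XS U {r | 0 < (r - i).val ∧ (r - i).val < (j - i).val}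
  opp : ∀ i, ∀ g ∈ XS U {r | (r - i).val < 6}, g ∈ XS U {r | 6 ≤ (r - i).val} → g = 1
  ne : ∀ i, ∃ x ∈ U i, x ≠ 1
  mu : ∀ i, ∀ x ∈ U i, x ≠ 1 → ∃ u ∈ U (i + 6), ∃ u' ∈ U (i + 6),
    Acts U (u * x * u') (Equiv.subLeft (2 * i + 6))

namespace W6

variable {G : Type*} [Group G] (W : W6 G)

/-- The even roots are long. -/
structure Long : Prop where
  cen : ∀ i j : ZMod 12, i.val % 2 = 0 → (j - i + 3).val ≤ 6 → ∀ x ∈ W.U i, ∀ y ∈ W.U j, Commute x y
  c4 : ∀ i : ZMod 12, i.val % 2 = 0 → ∀ x ∈ W.U i, ∀ y ∈ W.U (i + 4), ⁅x, y⁆ ∈ W.U (i + 2)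
  ab : ∀ i, ∀ x ∈ W.U i, ∀ y ∈ W.U i, Commute x y

/-- The subgroup generated by a list of root groups. -/
def S (l : List (ZMod 12)) : Subgroup G := XS W.U {r | r ∈ l}

theorem xs_comp (e : Equiv.Perm (ZMod 12)) (T : Set (ZMod 12)) :
    XS (fun i => W.U (e i)) T = XS W.U {r | e.symm r ∈ T} :=
  le_antisymm (XS_le.2 fun r hr => le_XS (X := W.U) (by simpa using hr))
    (XS_le.2 fun r hr => by
      have := le_XS (X := fun i => W.U (e i)) (S := T) (r := e.symm r) hr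
      simpa using this)

/-- Rotation of the indices. -/
def sh (c : ZMod 12) : W6 G where
  U i := W.U (i + c)
  cm i j h1 h2 x hx y hy := by
    have e : j + c - (i + c) = j - i := by ring
    have := W.cm (i + c) (j + c) (e ▸ h1) (e ▸ h2) x hx y hy
    rw [show (fun i => W.U (i + c)) = fun i => W.U (Equiv.addRight c i) from rfl, xs_comp]
    refine XS_mono (fun r => ?_) this
    simp only [Equiv.addRight_symm, Equiv.coe_addRight, Set.mem_ofPred_eq, e]
    rw [show r + -c - i = r - (i + c) by ring]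
    exact id
  opp i g h1 h2 := by
    rw [show (fun i => W.U (i + c)) = fun i => W.U (Equiv.addRight c i) from rfl, xs_comp] at h1 h2
    refine W.opp (i + c) g (XS_mono (fun r => ?_) h1) (XS_mono (fun r => ?_) h2)
    all_goals
      simp only [Equiv.addRight_symm, Equiv.coe_addRight, Set.mem_ofPred_eq]
      rw [show r + -c - i = r - (i + c) by ring]
      exact id
  ne i := W.ne _
  mu i x hx h := by
    obtain ⟨u, hu, u', hu', a⟩ := W.mu _ x hx h
    rw [show i + c + 6 = i + 6 + c by ring] at hu hu'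
    refine ⟨u, hu, u', hu', fun r y => ?_⟩
    have := a (r + c) y
    simp only [Equiv.subLeft_apply] at this ⊢
    rwa [show 2 * (i + c) + 6 - (r + c) = 2 * i + 6 - r + c by ring] at this


/-- Reflection of the indices. -/
def rv0 : W6 G where
  U i := W.U (-i)
  cm i j h1 h2 x hx y hy := by
    have e : -i - -j = j - i := by ring
    have := W.cm (-j) (-i) (e ▸ h1) (e ▸ h2) y hy x hx
    rw [show (fun i => W.U (-i)) = fun i => W.U (Equiv.neg _ i) from rfl, xs_comp,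
      ← commutatorElement_inv]
    refine inv_mem (XS_mono (fun r => ?_) this)
    simp only [Equiv.neg_symm, Equiv.neg_apply, Set.mem_ofPred_eq, e]
    clear this e hx hy
    revert i j r
    decide
  opp i g h1 h2 := by
    rw [show (fun i => W.U (-i)) = fun i => W.U (Equiv.neg _ i) from rfl, xs_comp] at h1 h2
    refine W.opp (-i - 5) g (XS_mono (fun r => ?_) h1) (XS_mono (fun r => ?_) h2)
    all_goals
      simp only [Equiv.neg_symm, Equiv.neg_apply, Set.mem_ofPred_eq]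
      clear h1 h2
      revert i r
      decide
  ne i := W.ne _
  mu i x hx h := by
    obtain ⟨u, hu, u', hu', a⟩ := W.mu _ x hx h
    have z : (12 : ZMod 12) = 0 := rfl
    rw [show -i + 6 = -(i + 6) by linear_combination z] at hu hu'
    refine ⟨u, hu, u', hu', fun r y => ?_⟩
    have := a (-r) y
    simp only [Equiv.subLeft_apply] at this ⊢
    rwa [show 2 * -i + 6 - -r = -(2 * i + 6 - r) by linear_combination z] at this

/-- Reflection `i ↦ c - i` of the indices. -/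
def rv (c : ZMod 12) : W6 G := (W.sh c).rv0

theorem sh_U (c i : ZMod 12) : (W.sh c).U i = W.U (i + c) := rfl

theorem rv_U (c i : ZMod 12) : (W.rv c).U i = W.U (-i + c) := rfl

theorem sh_S (c : ZMod 12) (l : List (ZMod 12)) : (W.sh c).S l = W.S (l.map (· + c)) :=
  le_antisymm (XS_le.2 fun r hr => le_XS (X := W.U) (List.mem_map.2 ⟨r, hr, rfl⟩))
    (XS_le.2 fun _ hr => by
      obtain ⟨s, hs, rfl⟩ := List.mem_map.1 hr
      exact le_XS (X := (W.sh c).U) hs)

theorem rv_S (c : ZMod 12) (l : List (ZMod 12)) : (W.rv c).S l = W.S (l.map (-· + c)) :=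
  le_antisymm (XS_le.2 fun r hr => le_XS (X := W.U) (List.mem_map.2 ⟨r, hr, rfl⟩))
    (XS_le.2 fun _ hr => by
      obtain ⟨s, hs, rfl⟩ := List.mem_map.1 hr
      exact le_XS (X := (W.rv c).U) hs)

variable {W} {l l' : List (ZMod 12)} {i j : ZMod 12} {x y a g : G}

theorem mS (hx : x ∈ W.U i) (h : i ∈ l := by decide) : x ∈ W.S l :=
  mem_XS (X := W.U) (S := {r | r ∈ l}) (r := i) h hx

theorem S_le {H : Subgroup G} (h : ∀ r ∈ l, W.U r ≤ H) : W.S l ≤ H := XS_le.2 h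

theorem mono (hg : g ∈ W.S l) (h : ∀ r ∈ l, r ∈ l' := by decide) : g ∈ W.S l' := XS_mono h hg

theorem S_one (hg : g ∈ W.S [i]) : g ∈ W.U i := S_le (by simp) hg

theorem S_nil (hg : g ∈ W.S []) : g = 1 := Subgroup.mem_bot.1 (S_le (by simp) hg)

/-- two lists of roots separated by a wall -/
theorem sep (hg : g ∈ W.S l) (hg' : g ∈ W.S l')
    (h : ∃ i : ZMod 12, (∀ r ∈ l, (r - i).val < 6) ∧ ∀ r ∈ l', 6 ≤ (r - i).val := by decide) : g = 1 := by
  obtain ⟨i, h1, h2⟩ := h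
  exact W.opp i g (XS_mono h1 hg) (XS_mono h2 hg')

/-- `k` is strictly between `i` and `j` -/
abbrev Bt (i j k : ZMod 12) : Prop :=
  (0 < (k - i).val ∧ (k - i).val < (j - i).val ∧ (j - i).val < 6) ∨
    (0 < (k - j).val ∧ (k - j).val < (i - j).val ∧ (i - j).val < 6)

theorem cmS (hx : x ∈ W.U i) (hy : y ∈ W.U j) (l : List (ZMod 12))
    (h : i ≠ j ∧ j ≠ i + 6 ∧ ∀ k, Bt i j k → k ∈ l := by decide) : ⁅x, y⁆ ∈ W.S l := by
  obtain ⟨h1, h2, h3⟩ := h
  have c : ∀ i j : ZMod 12, i ≠ j → j ≠ i + 6 →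
      (0 < (j - i).val ∧ (j - i).val < 6) ∨ (0 < (i - j).val ∧ (i - j).val < 6) := by decide
  rcases c i j h1 h2 with ⟨k1, k2⟩ | ⟨k1, k2⟩
  · exact XS_mono (fun r hr => h3 r (.inl ⟨hr.1, hr.2, k2⟩)) (W.cm i j k1 k2 x hx y hy)
  · rw [← commutatorElement_inv]
    exact inv_mem (XS_mono (fun r hr => h3 r (.inr ⟨hr.1, hr.2, k2⟩)) (W.cm j i k1 k2 y hy x hx))

theorem c1 (hx : x ∈ W.U i) (hy : y ∈ W.U j)
    (h : i ≠ j ∧ j ≠ i + 6 ∧ ∀ k, Bt i j k → k ∈ ([] : List (ZMod 12)) := by decide) : Commute x y :=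
  commutatorElement_eq_one_iff_commute.1 (S_nil (cmS hx hy [] h))

/-- `U i` normalizes `S l` -/
abbrev Nm (i : ZMod 12) (l : List (ZMod 12)) : Prop :=
  ∀ r ∈ l, r = i ∨ (i ≠ r ∧ r ≠ i + 6 ∧ ∀ k, Bt i r k → k ∈ l)

theorem nrm (hx : x ∈ W.U i) (ha : a ∈ W.S l) (h : Nm i l := by decide) : x * a * x⁻¹ ∈ W.S l := by
  refine conj_mem_of_XS ha fun r hr y hy => ?_
  rcases h r hr with rfl | k
  · exact mS (mul_mem (mul_mem hx hy) (inv_mem hx)) hr
  · have : x * y * x⁻¹ = ⁅x, y⁆ * y := by rw [commutatorElement_def]; group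
    rw [this]
    exact mul_mem (cmS hx hy l k) (mS hy hr)

theorem nrm' (hx : x ∈ W.U i) (ha : a ∈ W.S l) (h : Nm i l := by decide) : x⁻¹ * a * x ∈ W.S l := by
  simpa using nrm (inv_mem hx) ha h

theorem nrmS (hg : g ∈ W.S l') (ha : a ∈ W.S l) (h : ∀ i ∈ l', Nm i l := by decide) :
    g * a * g⁻¹ ∈ W.S l :=
  XS_conj_mem hg ha fun r hr _ hx _ hb => nrm hx hb (h r hr)

theorem dec (hg : g ∈ W.S (i :: l)) (h : Nm i l := by decide) :
    ∃ x ∈ W.U i, ∃ a ∈ W.S l, g = x * a := by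
  refine exists_mul_of_mem_sup (fun _ hx _ ha => nrm hx ha h) (S_le (fun r hr => ?_) hg)
  rcases List.mem_cons.1 hr with rfl | hr
  exacts [le_sup_left, le_sup_of_le_right (le_XS hr)]

theorem dec' (hg : g ∈ W.S (i :: l)) (h : Nm i l := by decide) :
    ∃ a ∈ W.S l, ∃ x ∈ W.U i, g = a * x := by
  obtain ⟨x, hx, a, ha, rfl⟩ := dec hg h
  exact ⟨_, nrm hx ha h, x, hx, by group⟩

theorem act {c : ZMod 12} {m : G} (hm : Acts W.U m (Equiv.subLeft c)) (hx : x ∈ W.U i) (j : ZMod 12)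
    (h : c - i = j := by decide) : m * x * m⁻¹ ∈ W.U j := h ▸ hm.conj_mem hx

theorem act_inv {c : ZMod 12} {m : G} (hm : Acts W.U m (Equiv.subLeft c)) :
    Acts W.U m⁻¹ (Equiv.subLeft c) := by
  have := hm.inv
  rwa [show (Equiv.subLeft c)⁻¹ = Equiv.subLeft c from
    inv_eq_of_mul_eq_one_left (Equiv.ext fun r => by simp)] at this

theorem actS {c : ZMod 12} {m : G} (hm : Acts W.U m (Equiv.subLeft c)) (ha : a ∈ W.S l)
    (l' : List (ZMod 12)) (h : ∀ r ∈ l, c - r ∈ l' := by decide) : m * a * m⁻¹ ∈ W.S l' :=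
  hm.conj_mem_XS h ha

/-- a nontrivial element of `U 2` does not centralize `U 6`, `U 7` -/
theorem lemN {q c : G} (ha : a ∈ W.U 2) (a1 : a ≠ 1) (hq : q ∈ W.S [3, 4, 5, 6, 7, 8])
    (hc : c ∈ W.S [5, 6, 7, 8]) (h : a * q * c * (a * q)⁻¹ ∈ W.S [6, 7]) : c = 1 := by
  obtain ⟨u, hu, u', hu', hm⟩ := W.mu 2 a ha a1
  have h1 := actS (act_inv hm) (nrm (i := 8) hu h) [3, 4]
  obtain ⟨x, hx, b, hb, e⟩ := dec (mul_mem (inv_mem (mS (i := 8) hu')) hq)
  obtain ⟨y, hy, s, hs, rfl⟩ := dec hb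
  have h2 : s * c * s⁻¹ = (x * y)⁻¹ * ((u * a * u')⁻¹ * (u * (a * q * c * (a * q)⁻¹) * u⁻¹) *
      (u * a * u')⁻¹⁻¹) * (x * y) := by
    rw [show q = u' * (x * (y * s)) by rw [← e]; group]; group
  have h3 : x * y ∈ W.S [3, 4] := mul_mem (mS hx) (mS hy)
  have h4 := sep (h2 ▸ mul_mem (mul_mem (inv_mem h3) h1) h3) (mul_mem (mul_mem hs hc) (inv_mem hs))
  simpa using h4

end W6

end H80.FS6
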