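import Mathlib
import Cfsg.Agent.Lib.FW2.HexGon
import Cfsg.Agent.Lib.FS6.Defs

/-! Finite Moufang hexagons (blueprint/FS6): reflections, coordinates, hexagonal systems. -/

set_option autoImplicit false
set_option linter.unusedSectionVars false

open Matrix H24 H63.St H73.FW H80.FS6 H80.FS6.W6
open H52.FW (M2 wS dS Act)
open scoped MatrixGroups commutatorElement

namespace H73.FS6

/-- decide a statement about indices, possibly with a variable index -/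
syntax "dz" : tactic
macro_rules
  | `(tactic| dz) => `(tactic| first | decide | (clear * -; decide +revert))

section mu

variable {G : Type*} [Group G] {A : W6 G}

/-- `u * x * u'` is the reflection attached to `x ∈ U i` -/
structure Mu (A : W6 G) (i : ZMod 12) (u x u' : G) : Prop where
  l : u ∈ A.U (i + 6)
  m : x ∈ A.U i
  r : u' ∈ A.U (i + 6)
  ne : x ≠ 1
  acts : Acts A.U (u * x * u') (Equiv.subLeft (2 * i + 6))

theorem U_cj {g : G} {w : Equiv.Perm (ZMod 12)} (h : Acts A.U g w) {i j : ZMod 12} {x : G}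
    (hx : x ∈ A.U i) (hl : w i = j := by dz) : g * x * g⁻¹ ∈ A.U j := hl ▸ h.conj_mem hx

theorem S_cj {g : G} {w : Equiv.Perm (ZMod 12)} (h : Acts A.U g w) {l l' : List (ZMod 12)} {x : G}
    (hx : x ∈ A.S l) (hl : ∀ r ∈ l, w r ∈ l' := by dz) : g * x * g⁻¹ ∈ A.S l' :=
  h.conj_mem_XS hl hx

theorem U_eq {i j : ZMod 12} {x : G} (hx : x ∈ A.U i) (hl : i = j := by dz) : x ∈ A.U j := hl ▸ hx

theorem cj_eq (x y : G) : x * y * x⁻¹ = ⁅x, y⁆ * y := by rw [commutatorElement_def]; group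

theorem cj_eq' (x y : G) : y * x * y⁻¹ = ⁅x, y⁆⁻¹ * x := by rw [commutatorElement_def]; group

/-- commutation when one of the two roots is long -/
theorem lc (L : A.Long) {i j : ZMod 12} {x y : G} (hx : x ∈ A.U i) (hy : y ∈ A.U j)
    (h : (i.val % 2 = 0 ∧ (j - i + 3).val ≤ 6) ∨ (j.val % 2 = 0 ∧ (i - j + 3).val ≤ 6) := by dz) :
    x * y = y * x :=
  h.elim (fun e => (L.cen i j e.1 e.2 x hx y hy).eq) fun e => (L.cen j i e.1 e.2 y hy x hx).eq.symm

/-- removing a root: `g ∈ S (i :: l) ⊓ S l'` -/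
theorem drop {i : ZMod 12} {l l' : List (ZMod 12)} {g : G} (hg : g ∈ A.S (i :: l)) (hg' : g ∈ A.S l')
    (h : Nm i l ∧ ∃ k : ZMod 12, (∀ r ∈ [i], (r - k).val < 6) ∧ ∀ r ∈ l' ++ l, 6 ≤ (r - k).val := by dz) :
    g ∈ A.S l := by
  obtain ⟨a, ha, b, hb, rfl⟩ := dec hg h.1
  have : a = 1 := sep (mS ha (by simp)) (l' := l' ++ l) (by
    rw [show a = a * b * b⁻¹ by group]
    exact mul_mem (mono hg' (by simp +contextual)) (inv_mem (mono hb (by simp +contextual)))) h.2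
  rwa [this, one_mul]

theorem exists_mu {i : ZMod 12} {x : G} (hx : x ∈ A.U i) (h : x ≠ 1) : ∃ u u', Mu A i u x u' := by
  obtain ⟨u, hu, u', hu', k⟩ := A.mu i x hx h
  exact ⟨u, u', hu, hx, hu', h, k⟩

namespace Mu

theorem inv {i : ZMod 12} {u x u' : G} (h : Mu A i u x u') :
    Mu A i u'⁻¹ x⁻¹ u⁻¹ :=
  ⟨inv_mem h.r, inv_mem h.m, inv_mem h.l, inv_ne_one.2 h.ne, by
    have := h.acts.inv
    rwa [show (u * x * u')⁻¹ = u'⁻¹ * x⁻¹ * u⁻¹ by group, show (Equiv.subLeft (2 * i + 6))⁻¹ =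
      Equiv.subLeft (2 * i + 6) from Equiv.ext (by dz)] at this⟩

theorem cj {i : ZMod 12} {u x u' : G} (h : Mu A i u x u')
    {g : G} {w : Equiv.Perm (ZMod 12)} (hg : Acts A.U g w) {j : ZMod 12}
    (e : w i = j ∧ w (i + 6) = j + 6 ∧ ∀ r, w (2 * i + 6 - r) = 2 * j + 6 - w r := by dz) :
    Mu A j (g * u * g⁻¹) (g * x * g⁻¹) (g * u' * g⁻¹) :=
  ⟨U_cj hg h.l e.2.1, U_cj hg h.m e.1, U_cj hg h.r e.2.1, by simpa using h.ne, by
    have := (hg.mul h.acts).mul hg.inv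
    rwa [show g * (u * x * u') * g⁻¹ = g * u * g⁻¹ * (g * x * g⁻¹) * (g * u' * g⁻¹) by group,
      show w * Equiv.subLeft (2 * i + 6) * w⁻¹ = Equiv.subLeft (2 * j + 6) from Equiv.ext fun r => by
        simp [e.2.2]] at this⟩

theorem r_ne {i : ZMod 12} {u x u' : G} (h : Mu A i u x u') :
    u' ≠ 1 := fun e => by
  have h1 : u * x * u' * u * (u * x * u')⁻¹ ∈ A.U i := U_cj h.acts h.l
  have h2 : u * x * u' * x * (u * x * u')⁻¹ ∈ A.U (i + 6) := U_cj h.acts h.m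
  rw [e, mul_one, show u * x * x * (u * x)⁻¹ = u * x * u⁻¹ by group] at h2
  have h3 : x ∈ A.U (i + 6) := by
    simpa [mul_assoc] using mul_mem (mul_mem (inv_mem h.l) h2) h.l
  exact h.ne (sep (l := [i]) (l' := [i + 6]) (mS h.m (by dz)) (mS h3 (by dz)) (by dz))

theorem l_ne {i : ZMod 12} {u x u' : G} (h : Mu A i u x u') :
    u ≠ 1 := by simpa using h.inv.r_ne

/-- the reflection is also attached to `u'` -/
theorem rgt {i : ZMod 12} {u x u' : G} (h : Mu A i u x u') :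
    Mu A (i + 6) x u' ((u * x * u')⁻¹ * u * (u * x * u')) :=
  ⟨U_eq h.m, h.r, by simpa only [inv_inv] using (U_cj h.acts.inv h.l : _ ∈ A.U (i + 6 + 6)), h.r_ne, by
    rw [show x * u' * ((u * x * u')⁻¹ * u * (u * x * u')) = u * x * u' by group,
      show 2 * (i + 6) + 6 = 2 * i + 6 by dz]
    exact h.acts⟩

/-- the reflection is also attached to `u` -/
theorem lft {i : ZMod 12} {u x u' : G} (h : Mu A i u x u') :
    Mu A (i + 6) (u * x * u' * u' * (u * x * u')⁻¹) u x :=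
  ⟨U_cj h.acts h.r, h.l, U_eq h.m, h.l_ne, by
    rw [show u * x * u' * u' * (u * x * u')⁻¹ * u * x = u * x * u' by group,
      show 2 * (i + 6) + 6 = 2 * i + 6 by dz]
    exact h.acts⟩

end Mu

/-- a root element moves the root groups at distance five -/
theorem nd5 {i : ZMod 12} {x y : G} (hx : x ∈ A.U i) (h1 : x ≠ 1) (hy : y ∈ A.U (i + 5))
    (h : x * y * x⁻¹ ∈ A.S [i + 2, i + 3, i + 4, i + 5, i + 6]) : y = 1 := by
  obtain ⟨u, u', m⟩ := exists_mu hx h1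
  have h2 : u * x * u' * y * (u * x * u')⁻¹ ∈ A.U (i + 1) := U_cj m.acts hy
  have h3 : u * x * u' * y * (u * x * u')⁻¹ = u * (x * y * x⁻¹) * u⁻¹ := by
    rw [mul_assoc _ u', (c1 m.r hy (by dz)).eq]; group
  have := sep (l := [i + 1]) (mS h2 (by dz)) (h3 ▸ nrm m.l h (by dz)) (by dz)
  exact conj_eq_one_iff.1 this

theorem nd5' {i : ZMod 12} {x y : G} (hx : x ∈ A.U (i + 6)) (h1 : x ≠ 1) (hy : y ∈ A.U (i + 1))
    (h : x * y * x⁻¹ ∈ A.S [i, i + 1, i + 2, i + 3, i + 4]) : y = 1 := by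
  obtain ⟨u, u', m⟩ := exists_mu hx h1
  have h2 : u * x * u' * y * (u * x * u')⁻¹ ∈ A.U (i + 5) := U_cj m.acts hy
  have h3 : u * x * u' * y * (u * x * u')⁻¹ = u * (x * y * x⁻¹) * u⁻¹ := by
    rw [mul_assoc _ u', (c1 m.r hy (by dz)).eq]; group
  have := sep (l := [i + 5]) (mS h2 (by dz)) (h3 ▸ nrm m.l h (by dz)) (by dz)
  exact conj_eq_one_iff.1 this

theorem Mu.uniq_l {i : ZMod 12} {u x u' v v' : G} (h : Mu A i u x u') (k : Mu A i v x v') : u = v := by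
  obtain ⟨y, hy, y1⟩ := A.ne (i + 5)
  have e : ∀ {u u' : G}, Mu A i u x u' → u * (x * y * x⁻¹) * u⁻¹ ∈ A.U (i + 1) := fun {u u'} m => by
    have h2 : u * x * u' * y * (u * x * u')⁻¹ ∈ A.U (i + 1) := U_cj m.acts hy
    rwa [mul_assoc _ u', (c1 m.r hy (by dz)).eq, show u * x * (y * u') * (u * x * u')⁻¹ = u * (x * y * x⁻¹) * u⁻¹ by group] at h2
  by_contra hn
  have := nd5' (mul_mem h.l (inv_mem k.l)) (fun e => hn (mul_inv_eq_one.1 e)) (e k) (by
    rw [show u * v⁻¹ * (v * (x * y * x⁻¹) * v⁻¹) * (u * v⁻¹)⁻¹ = u * (x * y * x⁻¹) * u⁻¹ by group]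
    exact mS (e h) (by dz))
  exact y1 (by simpa using this)

theorem Mu.uniq_r {i : ZMod 12} {u x u' v v' : G} (h : Mu A i u x u') (k : Mu A i v x v') : u' = v' :=
  inv_injective (h.inv.uniq_l k.inv)

end mu

/-- an additive parametrisation of a subgroup -/
structure Pa {G J : Type*} [Group G] [AddCommGroup J] (Y : Subgroup G) (x : J → G) : Prop where
  add : ∀ a b, x (a + b) = x a * x b
  mem : ∀ g, g ∈ Y ↔ ∃ a, g = x a
  inj : ∀ a, x a = 1 → a = 0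

namespace Pa
variable {G J : Type*} [Group G] [AddCommGroup J] {Y Y' : Subgroup G} {x : J → G} (p : Pa Y x)
include p

theorem zero : x 0 = 1 := by simpa using p.add 0 0

theorem mul (a b : J) : x a * x b = x (a + b) := (p.add a b).symm

theorem mul' (a b : J) (g : G) : x a * (x b * g) = x (a + b) * g := by rw [← mul_assoc, p.mul]

theorem neg (a : J) : (x a)⁻¹ = x (-a) := by rw [inv_eq_iff_mul_eq_one, p.mul, add_neg_cancel, p.zero]

theorem m (a : J) : x a ∈ Y := (p.mem _).2 ⟨a, rfl⟩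

theorem eq {a b : J} (e : x a = x b) : a = b := sub_eq_zero.1 (p.inj _ (by
  rw [sub_eq_add_neg, p.add, ← p.neg, e, mul_inv_cancel]))

theorem ne {a : J} (h : a ≠ 0) : x a ≠ 1 := fun e => h (p.inj a e)

theorem conj {n : G} (h : ∀ y, y ∈ Y ↔ n * y * n⁻¹ ∈ Y') : Pa Y' fun a => n * x a * n⁻¹ where
  add a b := by rw [p.add]; group
  mem g := ⟨fun hg => by
    obtain ⟨a, e⟩ := (p.mem (n⁻¹ * g * n)).1 ((h _).2 (by simpa [mul_assoc] using hg))
    exact ⟨a, by rw [← e]; group⟩, by rintro ⟨a, rfl⟩; exact (h _).1 (p.m a)⟩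
  inj a e := p.inj a (by simpa using e)

end Pa

/-- Coordinates on the long root groups `U 2`, `U 4`, `U 6`. -/
structure Hf {G : Type*} [Group G] (A : W6 G) (F : Type*) [Field F] where
  /-- coordinates on `U 6` -/
  x6 : F → G
  /-- the reflection in the root `1` -/
  wa : G
  /-- the reflection in the root `6` -/
  wb : G
  p6 : Pa (A.U 6) x6
  ma : ∃ u x u', Mu A 1 u x u' ∧ wa = u * x * u'
  mb : ∃ u u', Mu A 6 u (x6 1) u' ∧ wb = u * x6 1 * u'
  o62 : ∀ t s, x6 t * (wa * x6 s * wa⁻¹) =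
    wb * (wa * x6 (t * s) * wa⁻¹) * wb⁻¹ * (wa * x6 s * wa⁻¹ * x6 t)

/-- The long root `SL₂`. -/
structure Hb {G : Type*} [Group G] (A : W6 G) (F : Type*) [Field F] extends Hf A F where
  /-- the long root `SL₂` -/
  fb : SL(2, F) →* G
  injb : Function.Injective fb
  up : ∀ t, fb (upT t) = x6 t
  X0 : ∀ g, g ∈ A.U 0 ↔ ∃ a, g = fb (loT a)
  w : fb (wS F) = wb
  tb : ∀ t ht, Acts A.U (fb (dS t ht)) 1

/-- The short root group `U 1` is a vector space. -/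
structure Hy {G : Type*} [Group G] (A : W6 G) (F J : Type*) [Field F] [AddCommGroup J] [Module F J]
    extends Hb A F where
  lng : A.Long
  /-- coordinates on `U 1` -/
  x1 : J → G
  p1 : Pa (A.U 1) x1
  sm : ∀ t ht a, fb (dS t ht) * x1 a * (fb (dS t ht))⁻¹ = x1 (t⁻¹ • a)

/-- Hexagonal systems. -/
structure HS (F J : Type*) [Field F] [AddCommGroup J] [Module F J] where
  /-- the norm -/
  N : J → F
  /-- the adjoint -/
  sh : J → J
  /-- the trace form -/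
  T : J →ₗ[F] J →ₗ[F] F
  /-- the cross product -/
  cr : J →ₗ[F] J →ₗ[F] J
  /-- the base point -/
  e : J
  T_symm : ∀ a b, T a b = T b a
  sh_smul : ∀ (t : F) a, sh (t • a) = t ^ 2 • sh a
  sh_add : ∀ a b, sh (a + b) = sh a + sh b + cr a b
  N_smul : ∀ (t : F) a, N (t • a) = t ^ 3 * N a
  N_add : ∀ a b, N (a + b) = N a + N b + T a (sh b) + T b (sh a)
  T_cr : ∀ a y z, T y (cr a z) = T z (cr a y)
  N_ne : ∀ a, a ≠ 0 → N a ≠ 0
  N_e : N e = 1
  sh_e : sh e = e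
  cr_e : ∀ y, cr e y = T e y • e - y
  sh_sh : ∀ a, sh (sh a) = N a • a
  N_sh : ∀ a, N (sh a) = N a ^ 2
  rr : ∀ a, a ≠ 0 → ∀ c w y, c = (N a)⁻¹ • sh a → y = T w (sh a) • c - cr a w →
    T y (sh c) • a - cr c y = w

namespace HS

variable {F J : Type*} [Field F] [AddCommGroup J] [Module F J] (S : HS F J)

/-- the inverse -/
def inv (a : J) : J := (S.N a)⁻¹ • S.sh a

/-- the action of the reflection attached to `a` -/
def ρ (a y : J) : J := S.T y (S.sh a) • S.inv a - S.cr a y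

/-- `J` is the field `E` -/
structure Is {E : Type*} [Field E] (ι : F →+* E) (φ : E ≃+ J) : Prop where
  one : φ 1 = S.e
  smul : ∀ t x, φ (ι t * x) = t • φ x
  inv : ∀ x, x ≠ 0 → S.inv (φ x) = φ x⁻¹
  rho : ∀ x, x ≠ 0 → ∀ y, S.ρ (φ x) (φ y) = φ (ι (S.N (φ x)) * x⁻¹ ^ 2 * y)
  mul : ∀ x y, S.N (φ (x * y)) = S.N (φ x) * S.N (φ y)

end HS

/-- The hexagonal system of a Moufang hexagon. -/
structure Hz {G : Type*} [Group G] (A : W6 G) (F J : Type*) [Field F] [AddCommGroup J] [Module F J]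
    extends Hy A F J where
  /-- the hexagonal system -/
  S : HS F J
  /-- the reflection attached to `x1 a` -/
  m : J → G
  m_eq : ∀ a, m a = wa * x1 (S.inv a) * wa⁻¹ * x1 a * (wa * x1 (S.inv a) * wa⁻¹)
  mu : ∀ a, a ≠ 0 → Mu A 1 (wa * x1 (S.inv a) * wa⁻¹) (x1 a) (wa * x1 (S.inv a) * wa⁻¹)
  m_e : m S.e = wa
  m6 : ∀ a, a ≠ 0 → ∀ t, m a * x6 t * (m a)⁻¹ = wa * x6 (S.N a * t) * wa⁻¹
  m1 : ∀ a, a ≠ 0 → ∀ b, m a * x1 b * (m a)⁻¹ = wa * x1 ((S.N a)⁻¹ • S.ρ a b) * wa⁻¹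
  mm1 : ∀ a, a ≠ 0 → ∀ b, m a * m a * x1 b * (m a * m a)⁻¹ = x1 b
  mm : ∀ a, a ≠ 0 → ∀ i ∈ ([2, 3, 5, 6] : List (ZMod 12)), ∀ x ∈ A.U i, m a * m a * x * (m a * m a)⁻¹ = x⁻¹

end H73.FS6
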