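import Mathlib
import Cfsg.Agent.Lib.FS6.Dz

/-! Identities in hexagonal systems.  See `blueprint/FS6/README.md`. -/

set_option autoImplicit false
set_option linter.unusedSectionVars false

open Matrix H24 H63.St H73.FW H80.FS6 H80.FS6.W6
open H52.FW (M2 wS dS Act)
open scoped MatrixGroups commutatorElement

namespace H73.FS6

namespace HS

variable {F J : Type*} [Field F] [AddCommGroup J] [Module F J] (S : HS F J)

theorem id_sh0 : S.sh 0 = 0 := by simpa using S.sh_smul 0 0

theorem id_N0 : S.N 0 = 0 := by simpa using S.N_smul 0 0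

theorem e_ne : S.e ≠ 0 := fun h => by
  have := S.N_e
  rw [h, S.id_N0] at this
  exact zero_ne_one this

theorem cr_comm (a b : J) : S.cr a b = S.cr b a := by
  have h := S.sh_add a b
  rw [add_comm a b, S.sh_add, add_comm (S.sh b)] at h
  exact (add_left_cancel h).symm

theorem cr_self (a : J) : S.cr a a = (2 : F) • S.sh a := by
  have h := S.sh_add a a
  rw [← two_smul F a, S.sh_smul] at h
  linear_combination (norm := module) -h

theorem T_ee : S.T S.e S.e = 3 := by
  have h := S.cr_e S.e
  rw [S.cr_self, S.sh_e] at h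
  have : (S.T S.e S.e - 3) • S.e = 0 := by linear_combination (norm := module) -h
  exact sub_eq_zero.1 ((smul_eq_zero.1 this).resolve_right S.e_ne)

theorem T_self (a : J) : S.T a a = S.T S.e a ^ 2 - 2 * S.T S.e (S.sh a) := by
  have h := S.T_cr a S.e a
  rw [S.cr_self, S.cr_comm a, S.cr_e, map_sub, map_smul, map_smul, S.T_symm a S.e] at h
  simp only [smul_eq_mul] at h
  linear_combination h

theorem T_sh (a : J) : S.T a (S.sh a) = 3 * S.N a := by
  by_cases ha : a = 0
  · simp [ha, S.id_N0]
  have n0 := S.N_ne a ha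
  have h1 := S.N_add a a
  rw [← two_smul F a, S.N_smul] at h1
  have h := S.rr a ha _ a _ rfl rfl
  simp only [S.cr_self, S.sh_smul, S.sh_sh, map_sub, map_smul, LinearMap.sub_apply,
    LinearMap.smul_apply, smul_eq_mul, S.T_symm (S.sh a) a] at h
  generalize S.T a (S.sh a) = θ at *
  generalize S.N a = n at *
  have h2 : ((θ - n) * (θ - 3 * n) * n⁻¹ ^ 2) • a = 0 := by
    have e : n * n⁻¹ = 1 := mul_inv_cancel₀ n0
    rw [← sub_eq_zero] at h
    rw [← h]
    match_scalars
    field_simp
    ring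
  rcases mul_eq_zero.1 ((mul_eq_zero.1 ((smul_eq_zero.1 h2).resolve_right ha)).resolve_right
    (by simpa using n0)) with h3 | h3
  · have h4 : (2 : F) ^ 2 * n = 0 := by linear_combination h1 + 2 * h3
    have h5 : (2 : F) = 0 := pow_eq_zero_iff (two_ne_zero) |>.1 ((mul_eq_zero.1 h4).resolve_right n0)
    linear_combination h3 - n * h5
  · linear_combination h3

theorem cr_sh_cr (a b : J) : S.cr (S.sh a) (S.cr a b) = S.N a • b + S.T b (S.sh a) • a := by
  by_cases ha : a = 0
  · simp [ha, S.id_N0]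
  have n0 := S.N_ne a ha
  have h := S.rr a ha _ b _ rfl rfl
  simp only [S.cr_self, S.sh_smul, S.sh_sh, map_sub, map_smul, LinearMap.sub_apply,
    LinearMap.smul_apply, smul_eq_mul, S.T_symm (S.sh a) a, S.T_sh, S.T_symm (S.cr a b) a,
    S.T_cr a a b] at h
  generalize S.cr (S.sh a) (S.cr a b) = x at *
  generalize S.T b (S.sh a) = τ at *
  rw [← h]
  match_scalars <;> field_simp <;> ring

theorem cr_sh (a : J) : S.cr a (S.sh a) =
    (S.T S.e a * S.T S.e (S.sh a) - S.N a) • S.e - S.T S.e (S.sh a) • a - S.T S.e a • S.sh a := by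
  have h := S.cr_sh_cr a S.e
  rw [S.cr_comm a S.e, S.cr_e, map_sub, map_smul, S.cr_comm _ S.e, S.cr_e, S.cr_comm _ a] at h
  linear_combination (norm := module) -h

theorem indep {a : J} (h : ∀ t : F, a ≠ t • S.e) : LinearIndependent F ![S.e, a, S.sh a] := by
  rw [Fintype.linearIndependent_iff]
  intro g hg
  simp only [Fin.sum_univ_three, Matrix.cons_val_zero, Matrix.cons_val_one, Matrix.cons_val] at hg
  have g2 : g 2 = 0 := by
    by_contra g2
    obtain ⟨u, v, e⟩ : ∃ u v : F, S.sh a = u • S.e + v • a := ⟨-(g 2)⁻¹ * g 0, -(g 2)⁻¹ * g 1, by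
      have : S.sh a = (g 2)⁻¹ • g 2 • S.sh a := (inv_smul_smul₀ g2 _).symm
      linear_combination (norm := module) this + (g 2)⁻¹ • hg⟩
    have b0 : a + v • S.e ≠ 0 := fun k => h (-v) (by linear_combination (norm := module) k)
    have e1 : S.sh (a + v • S.e) = (u + v ^ 2 + v * S.T S.e a) • S.e := by
      rw [S.sh_add, S.sh_smul, S.sh_e, map_smul, S.cr_comm a, S.cr_e, e]
      module
    have e2 := S.sh_sh (a + v • S.e)
    rw [e1, S.sh_smul, S.sh_e] at e2
    have e3 := inv_smul_smul₀ (S.N_ne _ b0) (a + v • S.e)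
    rw [← e2] at e3
    exact h ((S.N (a + v • S.e))⁻¹ * (u + v ^ 2 + v * S.T S.e a) ^ 2 - v)
      (by linear_combination (norm := module) -e3)
  rw [g2, zero_smul, add_zero] at hg
  have g1 : g 1 = 0 := by
    by_contra g1
    exact h (-(g 1)⁻¹ * g 0) (by
      have : a = (g 1)⁻¹ • g 1 • a := (inv_smul_smul₀ g1 _).symm
      linear_combination (norm := module) this + (g 1)⁻¹ • hg)
  rw [g1, zero_smul, add_zero] at hg
  have g0 := (smul_eq_zero.1 hg).resolve_right S.e_ne
  intro i
  fin_cases i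
  exacts [g0, g1, g2]

end HS

end H73.FS6
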