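import Mathlib
import Cfsg.Agent.Lib.FS6.Id

/-! Hexagonal systems of dimension at most three are fields.  See `blueprint/FS6/README.md`. -/

set_option autoImplicit false
set_option linter.unusedSectionVars false

open Matrix H24 H63.St H73.FW H80.FS6 H80.FS6.W6
open H52.FW (M2 wS dS Act)
open scoped MatrixGroups commutatorElement

namespace H73.FS6

namespace Alg

/-- the cubic algebra with basis `1, a, a♯` -/
structure E3 {F : Type} (τ σ n : F) where
  /-- coefficient of `1` -/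
  x : F
  /-- coefficient of `a` -/
  y : F
  /-- coefficient of `a♯` -/
  z : F

variable {F : Type} [Field F] {τ σ n : F}

theorem ext {p q : E3 τ σ n} (h1 : p.x = q.x) (h2 : p.y = q.y) (h3 : p.z = q.z) : p = q := by
  cases p; cases q; simp_all

instance iAdd : Add (E3 τ σ n) := ⟨fun p q => ⟨p.x + q.x, p.y + q.y, p.z + q.z⟩⟩
instance iNeg : Neg (E3 τ σ n) := ⟨fun p => ⟨-p.x, -p.y, -p.z⟩⟩
instance iZero : Zero (E3 τ σ n) := ⟨⟨0, 0, 0⟩⟩
instance iOne : One (E3 τ σ n) := ⟨⟨1, 0, 0⟩⟩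
instance iMul : Mul (E3 τ σ n) := ⟨fun p q =>
  ⟨p.x * q.x - σ * (p.y * q.y) + n * (p.y * q.z + p.z * q.y) - n * τ * (p.z * q.z),
    p.x * q.y + p.y * q.x + τ * (p.y * q.y) + n * (p.z * q.z),
    p.x * q.z + p.z * q.x + p.y * q.y + σ * (p.z * q.z)⟩⟩

theorem add_def (p q : E3 τ σ n) : p + q = ⟨p.x + q.x, p.y + q.y, p.z + q.z⟩ := rfl
theorem neg_def (p : E3 τ σ n) : -p = ⟨-p.x, -p.y, -p.z⟩ := rfl
theorem zero_def : (0 : E3 τ σ n) = ⟨0, 0, 0⟩ := rfl
theorem one_def : (1 : E3 τ σ n) = ⟨1, 0, 0⟩ := rfl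
theorem mul_def (p q : E3 τ σ n) : p * q =
  ⟨p.x * q.x - σ * (p.y * q.y) + n * (p.y * q.z + p.z * q.y) - n * τ * (p.z * q.z),
    p.x * q.y + p.y * q.x + τ * (p.y * q.y) + n * (p.z * q.z),
    p.x * q.z + p.z * q.x + p.y * q.y + σ * (p.z * q.z)⟩ := rfl

instance iRing : CommRing (E3 τ σ n) := CommRing.ofMinimalAxioms
  (fun a b c => by apply ext <;> simp only [add_def] <;> ring)
  (fun a => by apply ext <;> simp only [add_def, zero_def] <;> ring)
  (fun a => by apply ext <;> simp only [add_def, zero_def, neg_def] <;> ring)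
  (fun a b c => by apply ext <;> simp only [mul_def] <;> ring)
  (fun a b => by apply ext <;> simp only [mul_def] <;> ring)
  (fun a => by apply ext <;> simp only [mul_def, one_def] <;> ring)
  (fun a b c => by apply ext <;> simp only [mul_def, add_def] <;> ring)

/-- the scalars -/
def io : F →+* E3 τ σ n where
  toFun t := ⟨t, 0, 0⟩
  map_one' := rfl
  map_mul' a b := by apply ext <;> simp only [mul_def] <;> ring
  map_zero' := rfl
  map_add' a b := by apply ext <;> simp only [add_def] <;> ring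

theorem io_def (t : F) : (io t : E3 τ σ n) = ⟨t, 0, 0⟩ := rfl

/-- the adjoint -/
def sh (p : E3 τ σ n) : E3 τ σ n :=
  ⟨p.x ^ 2 + τ * (p.x * p.y) + σ * (p.x * p.z) + (τ * σ - n) * (p.y * p.z),
    n * p.z ^ 2 - p.x * p.y - σ * (p.y * p.z), p.y ^ 2 - p.x * p.z - τ * (p.y * p.z)⟩

/-- the cross product -/
def cr (p q : E3 τ σ n) : E3 τ σ n :=
  ⟨2 * (p.x * q.x) + τ * (p.x * q.y + p.y * q.x) + σ * (p.x * q.z + p.z * q.x) +
      (τ * σ - n) * (p.y * q.z + p.z * q.y),
    2 * n * (p.z * q.z) - (p.x * q.y + p.y * q.x) - σ * (p.y * q.z + p.z * q.y),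
    2 * (p.y * q.y) - (p.x * q.z + p.z * q.x) - τ * (p.y * q.z + p.z * q.y)⟩

/-- the trace form -/
def tr (p q : E3 τ σ n) : F :=
  3 * (p.x * q.x) + τ * (p.x * q.y + p.y * q.x) + σ * (p.x * q.z + p.z * q.x) +
    (τ ^ 2 - 2 * σ) * (p.y * q.y) + 3 * n * (p.y * q.z + p.z * q.y) + (σ ^ 2 - 2 * n * τ) * (p.z * q.z)

/-- the norm -/
def nm (p : E3 τ σ n) : F := (p * sh p).x

theorem mul_sh (p : E3 τ σ n) : p * sh p = io (nm p) := by
  apply ext <;> simp only [nm, io_def, mul_def, sh] <;> ring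

theorem sh_mul (p q : E3 τ σ n) : sh (p * q) = sh p * sh q := by
  apply ext <;> simp only [mul_def, sh] <;> ring

theorem nm_mul (p q : E3 τ σ n) : nm (p * q) = nm p * nm q := by
  have : (io (nm (p * q)) : E3 τ σ n) = io (nm p * nm q) := by
    rw [map_mul, ← mul_sh, ← mul_sh, ← mul_sh, sh_mul]; ring
  exact congrArg E3.x this

theorem mul_cr (p q : E3 τ σ n) : p * cr p q + q * sh p = io (tr q (sh p)) := by
  apply ext <;> simp only [tr, cr, io_def, mul_def, add_def, sh] <;> ring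

variable {J : Type*} [AddCommGroup J] [Module F J] (S : HS F J) (a : J)

/-- the algebra attached to `a` -/
abbrev EA : Type := E3 (S.T S.e a) (S.T S.e (S.sh a)) (S.N a)

/-- coordinates -/
def ph : EA S a →+ J := AddMonoidHom.mk' (fun p => p.x • S.e + p.y • a + p.z • S.sh a) fun p q => by
  simp only [add_def]; module

theorem ph_def (p : EA S a) : ph S a p = p.x • S.e + p.y • a + p.z • S.sh a := rfl

theorem ph_smul (t : F) (p : EA S a) : ph S a (io t * p) = t • ph S a p := by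
  simp only [ph_def, mul_def, io_def]; module

theorem ph_T (p q : EA S a) : S.T (ph S a p) (ph S a q) = tr p q := by
  have h1 := S.T_self (S.sh a)
  rw [S.sh_sh, map_smul, smul_eq_mul] at h1
  simp only [ph_def, map_add, map_smul, LinearMap.add_apply, LinearMap.smul_apply, smul_eq_mul, tr,
    S.T_symm a S.e, S.T_symm (S.sh a) S.e, S.T_symm (S.sh a) a, S.T_ee, S.T_self a, S.T_sh a, h1]
  ring

theorem ph_cr (p q : EA S a) : S.cr (ph S a p) (ph S a q) = ph S a (cr p q) := by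
  simp only [ph_def, map_add, map_smul, LinearMap.add_apply, LinearMap.smul_apply, cr,
    S.cr_comm a S.e, S.cr_comm (S.sh a) S.e, S.cr_comm (S.sh a) a, S.cr_self, S.sh_e, S.cr_e a,
    S.cr_e (S.sh a), S.cr_sh a, S.sh_sh]
  module

theorem ph_sh (p : EA S a) : S.sh (ph S a p) = ph S a (sh p) := by
  simp only [ph_def, S.sh_add, S.sh_smul, map_add, map_smul, LinearMap.add_apply, LinearMap.smul_apply, sh,
    S.sh_e, S.cr_e a, S.cr_e (S.sh a), S.cr_sh a, S.sh_sh]
  module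

theorem ph_N (p : EA S a) : S.N (ph S a p) = nm p := by
  have h1 := S.T_self (S.sh a)
  rw [S.sh_sh, map_smul, smul_eq_mul] at h1
  simp only [ph_def, S.N_add, S.N_smul, S.N_e, S.N_sh, S.sh_add, S.sh_smul, map_add, map_smul, map_sub,
    LinearMap.add_apply, LinearMap.smul_apply, smul_eq_mul, S.sh_e, S.cr_e a, S.sh_sh, nm, sh, mul_def,
    S.T_symm a S.e, S.T_symm (S.sh a) S.e, S.T_symm (S.sh a) a, S.T_ee, S.T_self a, S.T_sh a, h1]
  ring

theorem ph_bij [Finite J] (h : Module.finrank F J ≤ 3) (ha : ∀ t : F, a ≠ t • S.e) :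
    Function.Bijective (ph S a) := by
  have i := S.indep ha
  have : Module.Finite F J := Module.Finite.of_finite
  refine ⟨(injective_iff_map_eq_zero _).2 fun p hp => ?_, fun v => ?_⟩
  · have := Fintype.linearIndependent_iff.1 i ![p.x, p.y, p.z] (by
      rw [Fin.sum_univ_three]; exact hp)
    exact ext (this 0) (this 1) (this 2)
  · have e := i.span_eq_top_of_card_eq_finrank' (le_antisymm i.fintype_card_le_finrank (by simpa using h))
    obtain ⟨c, hc⟩ := (Submodule.mem_span_range_iff_exists_fun F).1 (e ▸ Submodule.mem_top : v ∈ _)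
    rw [Fin.sum_univ_three] at hc
    exact ⟨⟨c 0, c 1, c 2⟩, hc⟩

theorem eqns_Alg : True := by
  have := @io.eq_1
  have := @sh.eq_1
  have := @cr.eq_1
  have := @tr.eq_1
  have := @nm.eq_1
  have := @ph.eq_1.{0}
  trivial

end Alg

theorem HS.exists_is {F : Type} {J : Type*} [Field F] [Fintype F] [AddCommGroup J] [Module F J] [Finite J]
    (S : HS F J) (h : Module.finrank F J ≤ 3) :
    ∃ (E : Type) (_ : Field E) (_ : Fintype E) (ι : F →+* E) (φ : E ≃+ J), S.Is ι φ := by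
  by_cases ha : ∀ a, ∃ t : F, a = t • S.e
  · have b : Function.Bijective (LinearMap.toSpanSingleton F J S.e).toAddMonoidHom :=
      ⟨smul_left_injective F S.e_ne, fun a => (ha a).imp fun _ => Eq.symm⟩
    have e : ∀ t, AddEquiv.ofBijective _ b t = t • S.e := fun _ => rfl
    have i : ∀ x : F, x ≠ 0 → S.inv (x • S.e) = x⁻¹ • S.e := fun x hx => by
      rw [HS.inv, S.N_smul, S.sh_smul, S.N_e, S.sh_e, smul_smul]; congr 1; field_simp
    refine ⟨F, inferInstance, inferInstance, RingHom.id F, AddEquiv.ofBijective _ b, ?_, fun t x => ?_,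
      fun x hx => ?_, fun x hx y => ?_, fun x y => ?_⟩ <;> simp only [e, RingHom.id_apply]
    · exact one_smul _ _
    · exact mul_smul _ _ _
    · exact i x hx
    · rw [HS.ρ, i x hx]
      simp only [S.N_smul, S.sh_smul, S.N_e, S.sh_e, map_smul, LinearMap.smul_apply, S.T_ee, S.cr_self,
        smul_smul, smul_eq_mul, ← sub_smul]
      congr 1; field_simp; ring
    · simp only [S.N_smul, S.N_e]; ring
  push Not at ha
  obtain ⟨a, ha⟩ := ha
  have b := Alg.ph_bij S a h ha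
  have n0 : ∀ p : Alg.EA S a, p ≠ 0 → Alg.nm p ≠ 0 := fun p hp =>
    Alg.ph_N S a p ▸ S.N_ne _ fun e => hp (b.1 (e.trans (map_zero _).symm))
  have iv : ∀ p : Alg.EA S a, p ≠ 0 → p * (Alg.io (Alg.nm p)⁻¹ * Alg.sh p) = 1 := fun p hp => by
    rw [mul_left_comm, Alg.mul_sh, ← map_mul, inv_mul_cancel₀ (n0 p hp), map_one]
  have fld : IsField (Alg.EA S a) :=
    ⟨⟨0, 1, fun e => zero_ne_one (congrArg Alg.E3.x e)⟩, mul_comm, fun {p} hp => ⟨_, iv p hp⟩⟩
  letI := fld.toField
  have fin : Finite (Alg.EA S a) := Finite.of_injective _ b.1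
  have e : ∀ p, AddEquiv.ofBijective _ b p = Alg.ph S a p := fun _ => rfl
  have iv' : ∀ p : Alg.EA S a, p ≠ 0 → Alg.io (Alg.nm p)⁻¹ * Alg.sh p = p⁻¹ := fun p hp =>
    eq_inv_of_mul_eq_one_right (iv p hp)
  have i : ∀ p : Alg.EA S a, p ≠ 0 → S.inv (Alg.ph S a p) = Alg.ph S a p⁻¹ := fun p hp => by
    rw [HS.inv, Alg.ph_N, Alg.ph_sh, ← Alg.ph_smul, iv' p hp]
  refine ⟨Alg.EA S a, inferInstance, Fintype.ofFinite _, Alg.io, AddEquiv.ofBijective _ b, ?_,
    Alg.ph_smul S a, i, fun x hx y => ?_, fun x y => ?_⟩ <;> simp only [e]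
  · simp [Alg.ph_def, Alg.one_def]
  · rw [HS.ρ, i x hx, Alg.ph_sh, Alg.ph_T, Alg.ph_cr, Alg.ph_N, ← Alg.ph_smul, ← map_sub, ← Alg.mul_cr,
      ← Alg.mul_sh]
    congr 1; field_simp; ring
  · rw [Alg.ph_N, Alg.ph_N, Alg.ph_N, Alg.nm_mul]

end H73.FS6
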