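import Mathlib
import Cfsg.Agent.Lib.FS6.Dz

/-! Finite hexagonal systems have dimension at most three.  See `blueprint/FS6/README.md`. -/

set_option autoImplicit false
set_option linter.unusedSectionVars false

open Matrix H24 H63.St H73.FW H80.FS6 H80.FS6.W6
open H52.FW (M2 wS dS Act)
open scoped MatrixGroups commutatorElement

namespace H73.FS6

namespace CW

open MvPolynomial

variable {F J σ : Type*} [Field F] [AddCommGroup J] [Module F J]

/-- polynomial functions of bounded degree -/
structure Pd (d : ℕ) (f : (σ → F) → F) : Prop where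
  ex : ∃ P : MvPolynomial σ F, P.totalDegree ≤ d ∧ ∀ x, f x = eval x P

theorem Pd.add {d : ℕ} {f g : (σ → F) → F} (hf : Pd d f) (hg : Pd d g) : Pd d fun x => f x + g x := by
  obtain ⟨P, p, e⟩ := hf.ex
  obtain ⟨Q, q, e'⟩ := hg.ex
  exact ⟨P + Q, (totalDegree_add P Q).trans (max_le p q), fun x => by rw [e, e', map_add]⟩

theorem Pd.mul {d d' : ℕ} {f g : (σ → F) → F} (hf : Pd d f) (hg : Pd d' g) :
    Pd (d + d') fun x => f x * g x := by
  obtain ⟨P, p, e⟩ := hf.ex
  obtain ⟨Q, q, e'⟩ := hg.ex
  exact ⟨P * Q, (totalDegree_mul P Q).trans (add_le_add p q), fun x => by rw [e, e', map_mul]⟩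

theorem Pd.const (d : ℕ) (c : F) : Pd d fun _ : σ → F => c :=
  ⟨C c, by simp, fun x => by simp⟩

theorem Pd.var (i : σ) : Pd 1 fun x : σ → F => x i :=
  ⟨X i, by simp, fun x => by simp⟩

theorem Pd.congr {d : ℕ} {f g : (σ → F) → F} (hf : Pd d f) (e : ∀ x, g x = f x) : Pd d g := by
  rwa [funext e]

theorem lin (v : σ → J) (s : Finset σ) (φ : J →ₗ[F] F) : Pd 1 fun x => φ (∑ i ∈ s, x i • v i) := by
  classical
  induction s using Finset.induction_on with
  | empty => exact (Pd.const 1 0).congr fun x => by simp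
  | insert i s hi ih =>
    refine (((Pd.var i).mul (Pd.const 0 (φ (v i)))).add ih).congr fun x => ?_
    rw [Finset.sum_insert hi, map_add, map_smul, smul_eq_mul]

theorem sh0 (S : HS F J) : S.sh 0 = 0 := by simpa using S.sh_smul 0 0

theorem N0 (S : HS F J) : S.N 0 = 0 := by simpa using S.N_smul 0 0

theorem quad (S : HS F J) (v : σ → J) (s : Finset σ) (φ : J →ₗ[F] F) :
    Pd 2 fun x => φ (S.sh (∑ i ∈ s, x i • v i)) := by
  classical
  induction s using Finset.induction_on with
  | empty => exact (Pd.const 2 0).congr fun x => by simp [sh0]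
  | insert i s hi ih =>
    refine ((((((Pd.var i).mul (Pd.var i)).mul (Pd.const 0 (φ (S.sh (v i))))).add ih)).add
      ((Pd.var i).mul (lin v s (φ ∘ₗ S.cr (v i))))).congr fun x => ?_
    rw [Finset.sum_insert hi, S.sh_add, S.sh_smul]
    simp only [map_add, map_smul, smul_eq_mul, LinearMap.smul_apply, LinearMap.comp_apply, sq]

theorem cub (S : HS F J) (v : σ → J) (s : Finset σ) : Pd 3 fun x => S.N (∑ i ∈ s, x i • v i) := by
  classical
  induction s using Finset.induction_on with
  | empty => exact (Pd.const 3 0).congr fun x => by simp [N0]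
  | insert i s hi ih =>
    refine ((((((((Pd.var i).mul (Pd.var i)).mul (Pd.var i)).mul (Pd.const 0 (S.N (v i)))).add ih)).add
      ((Pd.var i).mul (quad S v s (S.T (v i))))).add
      (((Pd.var i).mul (Pd.var i)).mul (lin v s (S.T (S.sh (v i)))))).congr fun x => ?_
    rw [Finset.sum_insert hi, S.N_add, S.N_smul, S.sh_smul, S.T_symm (∑ i ∈ s, x i • v i)]
    simp only [map_smul, smul_eq_mul, LinearMap.smul_apply]
    ring

end CW

theorem HS.finrank_le {F J : Type*} [Field F] [Finite F] [AddCommGroup J] [Module F J] [Finite J] (S : HS F J) :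
    Module.finrank F J ≤ 3 := by
  classical
  by_contra hn
  haveI : Module.Finite F J := Module.Finite.of_finite
  haveI := Fintype.ofFinite F
  let b := Module.finBasis F J
  obtain ⟨P, p, e⟩ := (CW.cub S b Finset.univ).ex
  obtain ⟨q, hq⟩ := CharP.exists F
  have h := char_dvd_card_solutions q (f := P) (by rw [Fintype.card_fin]; omega)
  have h1 : Fintype.card {x : Fin (Module.finrank F J) → F // MvPolynomial.eval x P = 0} = 1 := by
    refine Fintype.card_eq_one_iff.2 ⟨⟨0, by rw [← e]; simp [CW.N0]⟩, fun x => Subtype.ext ?_⟩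
    have h2 : ∑ i, x.1 i • b i = 0 := by
      by_contra h3
      exact S.N_ne _ h3 ((e x.1).trans x.2)
    exact funext (Fintype.linearIndependent_iff.1 b.linearIndependent _ h2)
  rw [h1, Nat.dvd_one] at h
  exact CharP.char_ne_one F q h

end H73.FS6
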