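import Mathlib
import Cfsg.Agent.Lib.FS6.Dz

/-! Finite Moufang hexagons: coordinates on `U 2 ⋯ U 6`.  See `blueprint/FS6/README.md`. -/

set_option autoImplicit false
set_option linter.unusedSectionVars false

open Matrix H24 H63.St H73.FW H80.FS6 H80.FS6.W6
open H52.FW (M2 wS dS Act)
open scoped MatrixGroups commutatorElement

namespace H73.FS6

namespace Hy

variable {G : Type*} [Group G] {A : W6 G} {F J : Type*} [Field F] [AddCommGroup J] [Module F J] (Y : Hy A F J)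

/-- coordinates on `U 5` -/
def x5 (a : J) : G := Y.wb * Y.x1 a * Y.wb⁻¹
/-- coordinates on `U 2` -/
def x2 (t : F) : G := Y.wa * Y.x6 t * Y.wa⁻¹
/-- coordinates on `U 3` -/
def x3 (a : J) : G := Y.wa * Y.x5 a * Y.wa⁻¹
/-- coordinates on `U 4` -/
def x4 (t : F) : G := Y.wb * Y.x2 t * Y.wb⁻¹

theorem aa : Acts A.U Y.wa (Equiv.subLeft 8) := by
  obtain ⟨u, x, u', m, e⟩ := Y.ma
  exact e ▸ m.acts

theorem ab : Acts A.U Y.wb (Equiv.subLeft 6) := by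
  obtain ⟨u, u', m, e⟩ := Y.mb
  exact e ▸ m.acts

theorem p5 : Pa (A.U 5) Y.x5 := Y.p1.conj (Y.ab 1)
theorem p2 : Pa (A.U 2) Y.x2 := Y.p6.conj (Y.aa 6)
theorem p3 : Pa (A.U 3) Y.x3 := Y.p5.conj (Y.aa 5)
theorem p4 : Pa (A.U 4) Y.x4 := Y.p2.conj (Y.ab 2)

theorem o62_spec (t s : F) : Y.x6 t * Y.x2 s = Y.x4 (t * s) * (Y.x2 s * Y.x6 t) := Y.o62 t s

theorem e53 (y z : J) : ∃ f, Y.x5 y * Y.x3 z = Y.x4 f * (Y.x3 z * Y.x5 y) := by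
  obtain ⟨f, e⟩ := (Y.p4.mem _).1 (S_one (cmS (Y.p5.m y) (Y.p3.m z) [4]))
  exact ⟨f, by rw [← e, commutatorElement_def]; group⟩

/-- the commutator of `U 5` and `U 3` -/
noncomputable def o53 (y z : J) : F := (Y.e53 y z).choose

theorem o53_spec (y z : J) : Y.x5 y * Y.x3 z = Y.x4 (Y.o53 y z) * (Y.x3 z * Y.x5 y) := (Y.e53 y z).choose_spec

/-- coordinates on `U 2 ⋯ U 6` -/
def Φ (f s : F) (z y : J) (t : F) : G := Y.x4 f * (Y.x2 s * (Y.x3 z * (Y.x5 y * Y.x6 t)))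

theorem sw {a b : G} (h : a * b = b * a) (g : G) : b * (a * g) = a * (b * g) := by
  rw [← mul_assoc, ← h, mul_assoc]

theorem Φ_mul (f s : F) (z y : J) (t f' s' : F) (z' y' : J) (t' : F) : Y.Φ f s z y t * Y.Φ f' s' z' y' t' =
    Y.Φ (f + f' + t * s' + Y.o53 y z') (s + s') (z + z') (y + y') (t + t') := by
  have r24 := fun s f => sw (lc Y.lng (Y.p2.m s) (Y.p4.m f)).symm
  have r34 := fun s f => sw (lc Y.lng (Y.p3.m s) (Y.p4.m f)).symm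
  have r54 := fun s f => sw (lc Y.lng (Y.p4.m s) (Y.p5.m f))
  have r64 := fun s f => sw (lc Y.lng (Y.p4.m s) (Y.p6.m f))
  have r32 := fun s f => sw (lc Y.lng (Y.p2.m s) (Y.p3.m f))
  have r52 := fun s f => sw (lc Y.lng (Y.p2.m s) (Y.p5.m f))
  have r63 := fun s f => sw (lc Y.lng (Y.p3.m s) (Y.p6.m f))
  have r65 := fun s f => sw (lc Y.lng (Y.p5.m s) (Y.p6.m f))
  have r62 : ∀ g, Y.x6 t * (Y.x2 s' * g) = Y.x4 (t * s') * (Y.x2 s' * (Y.x6 t * g)) := fun g => by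
    rw [← mul_assoc, o62_spec]; simp only [mul_assoc]
  have r53 : ∀ g, Y.x5 y * (Y.x3 z' * g) = Y.x4 (Y.o53 y z') * (Y.x3 z' * (Y.x5 y * g)) := fun g => by
    rw [← mul_assoc, o53_spec]; simp only [mul_assoc]
  simp only [Φ, mul_assoc, r24, r34, r54, r64, r32, r52, r63, r65, r62, r53, Y.p2.mul', Y.p3.mul', Y.p4.mul',
    Y.p5.mul', Y.p6.mul]
  congr 2
  ring

theorem Φ_zero : Y.Φ 0 0 0 0 0 = 1 := by simp only [Φ, Y.p2.zero, Y.p3.zero, Y.p4.zero, Y.p5.zero, Y.p6.zero, mul_one]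

variable {Y}

theorem Φ_eq_one {f s : F} {z y : J} {t : F} (h : Y.Φ f s z y t = 1) : f = 0 ∧ s = 0 ∧ z = 0 ∧ y = 0 ∧ t = 0 := by
  have k : ∀ {a b c : G}, a * (b * c) = 1 → b = a⁻¹ * c⁻¹ := fun {a b c} h => by
    calc b = a⁻¹ * (a * (b * c)) * c⁻¹ := by group
      _ = _ := by rw [h, mul_one]
  have m2 := Y.p2.m s
  have m3 := Y.p3.m z
  have m4 := Y.p4.m f
  have m5 := Y.p5.m y
  have m6 := Y.p6.m t
  have h2 := sep (l := [2]) (l' := [3, 4, 5, 6]) (mS m2) (by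
    rw [k h]; exact mul_mem (inv_mem (mS m4)) (inv_mem (mul_mem (mS m3) (mul_mem (mS m5) (mS m6)))))
  rw [Φ, h2, one_mul] at h
  have h3 := sep (l := [3]) (l' := [4, 5, 6]) (mS m3) (by
    rw [k h]; exact mul_mem (inv_mem (mS m4)) (inv_mem (mul_mem (mS m5) (mS m6))))
  rw [h3, one_mul] at h
  have h4 := sep (l := [4]) (l' := [5, 6]) (mS m4) (by
    rw [eq_inv_of_mul_eq_one_left h]; exact inv_mem (mul_mem (mS m5) (mS m6)))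
  rw [h4, one_mul] at h
  have h5 := sep (l := [5]) (l' := [6]) (mS m5) (by
    rw [eq_inv_of_mul_eq_one_left h]; exact inv_mem (mS m6))
  rw [h5, one_mul] at h
  exact ⟨Y.p4.inj _ h4, Y.p2.inj _ h2, Y.p3.inj _ h3, Y.p5.inj _ h5, Y.p6.inj _ h⟩

theorem Φ_inv (f s : F) (z y : J) (t : F) :
    (Y.Φ f s z y t)⁻¹ = Y.Φ (-f - t * (-s) - Y.o53 y (-z)) (-s) (-z) (-y) (-t) := by
  rw [inv_eq_iff_mul_eq_one, Φ_mul, ← Y.Φ_zero]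
  congr 1 <;> first | ring1 | abel

theorem Φ_inj {f s : F} {z y : J} {t f' s' : F} {z' y' : J} {t' : F} (h : Y.Φ f s z y t = Y.Φ f' s' z' y' t') :
    f = f' ∧ s = s' ∧ z = z' ∧ y = y' ∧ t = t' := by
  have h1 := mul_inv_eq_one.2 h
  rw [Φ_inv, Φ_mul] at h1
  obtain ⟨-, h2, h3, h4, h5⟩ := Φ_eq_one h1
  rw [add_neg_eq_zero] at h2 h3 h4 h5
  subst h2 h3 h4 h5
  exact ⟨Y.p4.eq (mul_right_cancel h), rfl, rfl, rfl, rfl⟩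

variable (Y)

theorem Φ2 (s : F) : Y.x2 s = Y.Φ 0 s 0 0 0 := by
  simp only [Φ, Y.p3.zero, Y.p4.zero, Y.p5.zero, Y.p6.zero, mul_one, one_mul]
theorem Φ3 (s : J) : Y.x3 s = Y.Φ 0 0 s 0 0 := by
  simp only [Φ, Y.p2.zero, Y.p4.zero, Y.p5.zero, Y.p6.zero, mul_one, one_mul]
theorem Φ4 (s : F) : Y.x4 s = Y.Φ s 0 0 0 0 := by
  simp only [Φ, Y.p3.zero, Y.p2.zero, Y.p5.zero, Y.p6.zero, mul_one]
theorem Φ5 (s : J) : Y.x5 s = Y.Φ 0 0 0 s 0 := by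
  simp only [Φ, Y.p2.zero, Y.p4.zero, Y.p3.zero, Y.p6.zero, mul_one, one_mul]
theorem Φ6 (s : F) : Y.x6 s = Y.Φ 0 0 0 0 s := by
  simp only [Φ, Y.p3.zero, Y.p4.zero, Y.p5.zero, Y.p2.zero, one_mul]

/-- the elements with trivial last coordinate -/
def Sb (Z : AddSubgroup J) : Subgroup G where
  carrier := {g | ∃ f s z, ∃ y ∈ Z, g = Y.Φ f s z y 0}
  one_mem' := ⟨0, 0, 0, 0, Z.zero_mem, Y.Φ_zero.symm⟩
  mul_mem' := by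
    rintro _ _ ⟨f, s, z, y, hy, rfl⟩ ⟨f', s', z', y', hy', rfl⟩
    exact ⟨_, _, _, _, Z.add_mem hy hy', by rw [Φ_mul, add_zero]⟩
  inv_mem' := by
    rintro _ ⟨f, s, z, y, hy, rfl⟩
    exact ⟨_, _, _, _, Z.neg_mem hy, by rw [Φ_inv, neg_zero]⟩

theorem le_Sb (Z : AddSubgroup J) : A.S [2, 3, 4] ≤ Y.Sb Z := S_le (by
  simp only [List.forall_mem_cons, List.not_mem_nil, false_imp_iff, implies_true, and_true]
  refine ⟨fun x hx => ?_, fun x hx => ?_, fun x hx => ?_⟩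
  · obtain ⟨a, rfl⟩ := (Y.p2.mem x).1 hx; exact ⟨_, _, _, _, Z.zero_mem, Y.Φ2 a⟩
  · obtain ⟨a, rfl⟩ := (Y.p3.mem x).1 hx; exact ⟨_, _, _, _, Z.zero_mem, Y.Φ3 a⟩
  · obtain ⟨a, rfl⟩ := (Y.p4.mem x).1 hx; exact ⟨_, _, _, _, Z.zero_mem, Y.Φ4 a⟩)

theorem le_Sb' : A.S [2, 3, 4, 5] ≤ Y.Sb ⊤ := S_le (by
  simp only [List.forall_mem_cons, List.not_mem_nil, false_imp_iff, implies_true, and_true]
  refine ⟨fun x hx => Y.le_Sb _ (mS hx), fun x hx => Y.le_Sb _ (mS hx), fun x hx => Y.le_Sb _ (mS hx), fun x hx => ?_⟩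
  obtain ⟨a, rfl⟩ := (Y.p5.mem x).1 hx; exact ⟨_, _, _, _, trivial, Y.Φ5 a⟩)

theorem e13 (a z : J) : ∃ s, ⁅Y.x1 a, Y.x3 z⁆ = Y.x2 s := (Y.p2.mem _).1 (S_one (cmS (Y.p1.m a) (Y.p3.m z) [2]))

theorem e15 (a y : J) : ∃ p : F × F × J, ⁅Y.x1 a, Y.x5 y⁆ = Y.Φ p.1 p.2.1 p.2.2 0 0 := by
  obtain ⟨f, s, z, y, hy, e⟩ := Y.le_Sb ⊥ (cmS (Y.p1.m a) (Y.p5.m y) _)
  exact ⟨⟨f, s, z⟩, by rw [e, AddSubgroup.mem_bot.1 hy]⟩

theorem e16 (a : J) (t : F) : ∃ p : F × F × J × J, ⁅Y.x1 a, Y.x6 t⁆ = Y.Φ p.1 p.2.1 p.2.2.1 p.2.2.2 0 := by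
  obtain ⟨f, s, z, y, -, e⟩ := Y.le_Sb' (cmS (Y.p1.m a) (Y.p6.m t) _)
  exact ⟨⟨f, s, z, y⟩, e⟩

/-- the commutator of `U 1` and `U 3` -/
noncomputable def g2 (a z : J) : F := (Y.e13 a z).choose
/-- a component of the commutator of `U 1` and `U 5` -/
noncomputable def e4 (a y : J) : F := (Y.e15 a y).choose.1
/-- a component of the commutator of `U 1` and `U 5` -/
noncomputable def e2 (a y : J) : F := (Y.e15 a y).choose.2.1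
/-- a component of the commutator of `U 1` and `U 5` -/
noncomputable def e3 (a y : J) : J := (Y.e15 a y).choose.2.2
/-- a component of the commutator of `U 1` and `U 6` -/
noncomputable def d4 (a : J) (t : F) : F := (Y.e16 a t).choose.1
/-- a component of the commutator of `U 1` and `U 6` -/
noncomputable def d2 (a : J) (t : F) : F := (Y.e16 a t).choose.2.1
/-- a component of the commutator of `U 1` and `U 6` -/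
noncomputable def d3 (a : J) (t : F) : J := (Y.e16 a t).choose.2.2.1
/-- a component of the commutator of `U 1` and `U 6` -/
noncomputable def d5 (a : J) (t : F) : J := (Y.e16 a t).choose.2.2.2

theorem r13 (a z : J) : ⁅Y.x1 a, Y.x3 z⁆ = Y.x2 (Y.g2 a z) := (Y.e13 a z).choose_spec
theorem r15 (a y : J) : ⁅Y.x1 a, Y.x5 y⁆ = Y.Φ (Y.e4 a y) (Y.e2 a y) (Y.e3 a y) 0 0 := (Y.e15 a y).choose_spec
theorem r16 (a : J) (t : F) : ⁅Y.x1 a, Y.x6 t⁆ = Y.Φ (Y.d4 a t) (Y.d2 a t) (Y.d3 a t) (Y.d5 a t) 0 :=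
  (Y.e16 a t).choose_spec

theorem u5 (a y : J) : Y.x1 a * Y.x5 y * (Y.x1 a)⁻¹ = Y.Φ (Y.e4 a y) (Y.e2 a y) (Y.e3 a y) y 0 := by
  rw [cj_eq, r15]
  simp only [Φ, Y.p5.zero, Y.p6.zero, mul_one, mul_assoc]

theorem u6 (a : J) (t : F) : Y.x1 a * Y.x6 t * (Y.x1 a)⁻¹ = Y.Φ (Y.d4 a t) (Y.d2 a t) (Y.d3 a t) (Y.d5 a t) t := by
  rw [cj_eq, r16]
  simp only [Φ, Y.p6.zero, mul_one, mul_assoc]

/-- coordinates modulo `U 4` -/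
def Co (g : G) (s : F) (z y : J) (t : F) : Prop := ∃ f, g = Y.Φ f s z y t

theorem co2 (s : F) : Y.Co (Y.x2 s) s 0 0 0 := ⟨_, Y.Φ2 s⟩
theorem co3 (s : J) : Y.Co (Y.x3 s) 0 s 0 0 := ⟨_, Y.Φ3 s⟩
theorem co4 {x : G} (h : x ∈ A.U 4) : Y.Co x 0 0 0 0 := by
  obtain ⟨f, rfl⟩ := (Y.p4.mem x).1 h
  exact ⟨_, Y.Φ4 f⟩
theorem co5 (s : J) : Y.Co (Y.x5 s) 0 0 s 0 := ⟨_, Y.Φ5 s⟩
theorem co6 (s : F) : Y.Co (Y.x6 s) 0 0 0 s := ⟨_, Y.Φ6 s⟩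

theorem cj_Φ (n : G) (f s : F) (z y : J) (t : F) : n * Y.Φ f s z y t * n⁻¹ = n * Y.x4 f * n⁻¹ *
    (n * Y.x2 s * n⁻¹ * (n * Y.x3 z * n⁻¹ * (n * Y.x5 y * n⁻¹ * (n * Y.x6 t * n⁻¹)))) := by
  rw [Φ]; group

variable {Y}

namespace Co
variable {g g' : G} {s s' : F} {z z' y y' : J} {t t' : F}

theorem mul (h : Y.Co g s z y t) (h' : Y.Co g' s' z' y' t') : Y.Co (g * g') (s + s') (z + z') (y + y') (t + t') := by
  obtain ⟨f, rfl⟩ := h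
  obtain ⟨f', rfl⟩ := h'
  exact ⟨_, Y.Φ_mul ..⟩

theorem uniq (h : Y.Co g s z y t) (h' : Y.Co g' s' z' y' t') (e : g = g') : s = s' ∧ z = z' ∧ y = y' ∧ t = t' := by
  obtain ⟨f, rfl⟩ := h
  obtain ⟨f', rfl⟩ := h'
  exact (Φ_inj e).2

theorem congr (h : Y.Co g s z y t) (e1 : s = s') (e2 : z = z') (e3 : y = y') (e4 : t = t') : Y.Co g s' z' y' t' := by
  rwa [← e1, ← e2, ← e3, ← e4]

theorem u (h : Y.Co g s z y t) (a : J) : Y.Co (Y.x1 a * g * (Y.x1 a)⁻¹) (s + Y.g2 a z + Y.e2 a y + Y.d2 a t)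
    (z + Y.e3 a y + Y.d3 a t) (y + Y.d5 a t) t := by
  obtain ⟨f, rfl⟩ := h
  rw [cj_Φ, lc Y.lng (Y.p1.m a) (Y.p4.m f), lc Y.lng (Y.p1.m a) (Y.p2.m s), mul_inv_cancel_right,
    mul_inv_cancel_right, cj_eq _ (Y.x3 z), r13, u5, u6]
  exact ((Y.co4 (Y.p4.m f)).mul ((Y.co2 s).mul (((Y.co2 _).mul (Y.co3 z)).mul (Co.mul ⟨_, rfl⟩ ⟨_, rfl⟩)))).congr
    (by ring) (by abel) (by abel) (by ring)

/-- conjugation by an element that acts on the four root groups -/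
theorem tor (k : Y.Co g s z y t) {h : G} (hh : Acts A.U h 1) (e2 : h * Y.x2 s * h⁻¹ = Y.x2 s')
    (e3 : h * Y.x3 z * h⁻¹ = Y.x3 z') (e5 : h * Y.x5 y * h⁻¹ = Y.x5 y') (e6 : h * Y.x6 t * h⁻¹ = Y.x6 t') :
    Y.Co (h * g * h⁻¹) s' z' y' t' := by
  obtain ⟨f, rfl⟩ := k
  rw [cj_Φ, e2, e3, e5, e6]
  exact ((Y.co4 (hh.conj_mem (Y.p4.m f))).mul ((Y.co2 _).mul ((Y.co3 _).mul ((Y.co5 _).mul (Y.co6 _))))).congr
    (by ring) (by abel) (by abel) (by ring)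

/-- conjugation by a reflection -/
theorem ref (k : Y.Co g s z y t) {h : G} (hh : Acts A.U h (Equiv.subLeft 8)) (e2 : h * Y.x2 s * h⁻¹ = Y.x6 t')
    (e3 : h * Y.x3 z * h⁻¹ = Y.x5 y') (e5 : h * Y.x5 y * h⁻¹ = Y.x3 z') (e6 : h * Y.x6 t * h⁻¹ = Y.x2 s') :
    Y.Co (h * g * h⁻¹) s' z' y' t' := by
  obtain ⟨f, rfl⟩ := k
  rw [cj_Φ, e2, e3, e5, e6]
  exact ((Y.co4 (hh.conj_mem (Y.p4.m f))).mul ((Y.co6 _).mul ((Y.co5 _).mul ((Y.co3 _).mul (Y.co2 _))))).congr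
    (by ring) (by abel) (by abel) (by ring)

/-- commuting elements -/
theorem comm (h : Y.Co g s z y t) (h' : Y.Co g' s' z' y' t') (e : g * g' = g' * g) :
    t * s' + Y.o53 y z' = t' * s + Y.o53 y' z := by
  obtain ⟨f, rfl⟩ := h
  obtain ⟨f', rfl⟩ := h'
  rw [Φ_mul, Φ_mul] at e
  linear_combination (Φ_inj e).1

/-- the first coordinates modulo `U 4 ⋯ U 6` -/
theorem fst (h : Y.Co g s z y t) : (Y.x2 s)⁻¹ * g ∈ A.S [3, 4, 5, 6] := by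
  obtain ⟨f, rfl⟩ := h
  rw [Φ, sw (lc Y.lng (Y.p2.m s) (Y.p4.m f)), inv_mul_cancel_left]
  exact mul_mem (mS (Y.p4.m _)) (mul_mem (mS (Y.p3.m _)) (mul_mem (mS (Y.p5.m _)) (mS (Y.p6.m _))))

theorem snd (h : Y.Co g s z y t) : (Y.x3 z)⁻¹ * ((Y.x2 s)⁻¹ * g) ∈ A.S [4, 5, 6] := by
  obtain ⟨f, rfl⟩ := h
  rw [Φ, sw (lc Y.lng (Y.p2.m s) (Y.p4.m f)), inv_mul_cancel_left, sw (lc Y.lng (Y.p3.m z) (Y.p4.m f)),
    inv_mul_cancel_left]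
  exact mul_mem (mS (Y.p4.m _)) (mul_mem (mS (Y.p5.m _)) (mS (Y.p6.m _)))

end Co

variable (Y)

theorem zero6 (a : J) : Y.d2 a 0 = 0 ∧ Y.d3 a 0 = 0 ∧ Y.d5 a 0 = 0 ∧ (0 : F) = 0 :=
  Co.uniq ⟨_, rfl⟩ ⟨_, rfl⟩ ((Y.u6 a 0).symm.trans (by rw [Y.p6.zero, Φ_zero]; group))

theorem zero1 (t : F) : Y.d2 0 t = 0 ∧ Y.d3 0 t = 0 ∧ Y.d5 0 t = 0 ∧ t = t :=
  Co.uniq ⟨_, rfl⟩ (Y.co6 t) ((Y.u6 0 t).symm.trans (by rw [Y.p1.zero]; group))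

theorem zero1' (y : J) : Y.e2 0 y = 0 ∧ Y.e3 0 y = 0 ∧ y = y ∧ (0 : F) = 0 :=
  Co.uniq ⟨_, rfl⟩ (Y.co5 y) ((Y.u5 0 y).symm.trans (by rw [Y.p1.zero]; group))

theorem zero5 (a : J) : Y.e2 a 0 = 0 ∧ Y.e3 a 0 = 0 ∧ (0 : J) = 0 ∧ (0 : F) = 0 :=
  Co.uniq ⟨_, rfl⟩ ⟨_, rfl⟩ ((Y.u5 a 0).symm.trans (by rw [Y.p5.zero, Φ_zero]; group))

theorem zero3 (a : J) : Y.g2 a 0 = 0 := Y.p2.inj _ (by rw [← r13, Y.p3.zero, commutatorElement_one_right])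

theorem zero3' (a : J) : Y.g2 0 a = 0 := Y.p2.inj _ (by rw [← r13, Y.p1.zero, commutatorElement_one_left])

theorem c3 (a z : J) : Y.Co (Y.x1 a * Y.x3 z * (Y.x1 a)⁻¹) (Y.g2 a z) z 0 0 :=
  ((Y.co3 z).u a).congr (by rw [(Y.zero5 a).1, (Y.zero6 a).1]; ring) (by rw [(Y.zero5 a).2.1, (Y.zero6 a).2.1]; abel)
    (by rw [(Y.zero6 a).2.2.1]; abel) rfl

theorem c5 (a y : J) : Y.Co (Y.x1 a * Y.x5 y * (Y.x1 a)⁻¹) (Y.e2 a y) (Y.e3 a y) y 0 := ⟨_, Y.u5 a y⟩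

theorem c6 (a : J) (t : F) : Y.Co (Y.x1 a * Y.x6 t * (Y.x1 a)⁻¹) (Y.d2 a t) (Y.d3 a t) (Y.d5 a t) t := ⟨_, Y.u6 a t⟩

end Hy

end H73.FS6
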