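import Mathlib
import Cfsg.Agent.Lib.FS6.Dz
import Cfsg.Agent.Lib.SL2Elt.Steinberg

/-! Finite Moufang hexagons: rank one subgroups.  See `blueprint/FS6/README.md`. -/

set_option autoImplicit false
set_option linter.unusedSectionVars false

open Matrix H24 H63.St H73.FW H80.FS6 H80.FS6.W6
open H52.FW (M2 wS dS Act)
open scoped MatrixGroups commutatorElement

namespace H73.FS6

variable {G K : Type*} [Group G] [Field K]

theorem exists_sl [Finite K] {x y : K → G} {w : G} (add : ∀ a b, x (a + b) = x a * x b)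
    (hy : ∀ b, y b = w * x (-b) * w⁻¹) (hw : y (-1) * x 1 * y (-1) = w)
    (k1 : ∀ t, t ≠ 0 → ∀ u, y (-t⁻¹) * x t * y (-t⁻¹) * x u * (y (-t⁻¹) * x t * y (-t⁻¹))⁻¹ = y (-(t⁻¹ ^ 2 * u)))
    (k2 : ∀ t, t ≠ 0 → ∀ u, y (-t⁻¹) * x t * y (-t⁻¹) * y u * (y (-t⁻¹) * x t * y (-t⁻¹))⁻¹ = x (-(t ^ 2 * u))) :
    ∃ f : SL(2, K) →* G, (∀ t, f (upT t) = x t) ∧ (∀ t, f (loT t) = y t) ∧ f (wS K) = w ∧ f (-1) = w * w ∧
      ∀ t ht, f (dS t ht) = y (-t⁻¹) * x t * y (-t⁻¹) * w⁻¹ := by
  have yadd : ∀ a b, y (a + b) = y a * y b := fun a b => by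
    rw [hy, hy, hy, neg_add, add]; group
  have key : ∀ t, t ≠ 0 → x t * y (-t⁻¹) * x t = y (-t⁻¹) * x t * y (-t⁻¹) := fun t ht => by
    have e := k2 t ht (-t⁻¹)
    rw [show -(t ^ 2 * -t⁻¹) = t by field_simp, mul_inv_eq_iff_eq_mul] at e
    have : y (-t⁻¹) * x t * y (-t⁻¹) * y (-t⁻¹) = x t * y (-t⁻¹) * x t * y (-t⁻¹) := by
      rw [e]; group
    exact (mul_right_cancel this).symm
  let S : H64.St2 K G :=
    { x := x
      y := y
      x_add := add
      y_add := yadd
      wx := fun t u ht => by rw [key t ht]; exact k1 t ht u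
      wy := fun t u ht => by
        have e := k2 (-t⁻¹) (neg_ne_zero.2 (inv_ne_zero ht)) u
        rw [show -(-t⁻¹)⁻¹ = t by simp, neg_sq] at e
        exact e }
  obtain ⟨f, fx, fy⟩ := S.exists_hom
  have ex : ∀ t, f (upT t) = x t := fun t => fx t
  have ey : ∀ t, f (loT t) = y t := fun t => fy t
  have em : ∀ t ht, f (dS t ht) * f (wS K) = y (-t⁻¹) * x t * y (-t⁻¹) := fun t ht => by
    rw [← map_mul, ← NF.mu_eq ht, map_mul, map_mul, ex, ey]
  have ew : f (wS K) = w := by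
    have e := em 1 one_ne_zero
    rw [show dS (1 : K) one_ne_zero = 1 by simp only [H64.SL2.ent, dS]; simp, map_one, one_mul,
      inv_one, hw] at e
    exact e
  refine ⟨f, ex, ey, ew, by rw [← NF.w_w, map_mul, ew], fun t ht => ?_⟩
  rw [← em t ht, ew, mul_inv_cancel_right]

theorem sl_inj {A : W6 G} {i : ZMod 12} {f : SL(2, K) →* G} (hU : ∀ t, f (upT t) ∈ A.U i)
    (hV : ∀ t, f (loT t) ∈ A.U (i + 6)) (h0 : ∀ t, f (loT t) = 1 → t = 0) (hm : (2 : K) = 0 ∨ f (-1) ≠ 1) :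
    Function.Injective f := by
  have h : ∀ g ∈ A.U i, g ∈ A.U (i + 6) → g = 1 := fun g h1 h2 =>
    sep (l := [i]) (l' := [i + 6]) (mS h1 (by simp)) (mS h2 (by simp))
      ⟨i, by simp, by simp; decide⟩
  have key : ∀ k, f k = 1 → k 1 0 = 0 := fun k hk => by_contra fun hn => by
    have hd := H64.SL2.det_eq k
    have : loT (k 1 0) = upT ((1 - k 0 0) / k 1 0) * k * upT ((1 - k 1 1) / k 1 0) := by
      simp only [H64.SL2.ent, upT, loT]
      field_simp
      refine ⟨by ring, by linear_combination hd, by ring, by ring⟩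
    refine hn (h0 _ (h _ ?_ (hV _)))
    rw [this, map_mul, map_mul, hk, mul_one]
    exact mul_mem (hU _) (hU _)
  refine (injective_iff_map_eq_one f).2 fun k hk => ?_
  have h1 := key k hk
  have h2 := key (wS K * k * (wS K)⁻¹) (by simp [hk])
  have h3 := key (loT 1 * k * (loT 1)⁻¹) (by simp [hk])
  have hd := H64.SL2.det_eq k
  simp only [H64.SL2.ent, wS, loT] at h2 h3
  rcases mul_eq_zero.1 (show (k 0 0 - 1) * (k 0 0 + 1) = 0 by grind) with e | e
  · simp only [H64.SL2.ent]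
    grind
  · rcases hm with hm | hm
    · simp only [H64.SL2.ent]
      grind
    · refine absurd (hk ▸ congrArg f ?_) hm
      simp only [H64.SL2.ent]
      grind

theorem act_of_tor {A : W6 G} {i : ZMod 12} {f : SL(2, K) →* G}
    (hm : ∀ t, t ≠ 0 → Mu A i (f (loT (-t⁻¹))) (f (upT t)) (f (loT (-t⁻¹)))) {h : G} (hh : Acts A.U h 1)
    {τ : K} (h0 : τ ≠ 0) (e : ∀ t, h * f (upT t) * h⁻¹ = f (upT (τ * t))) : Act f h (dg τ) := by
  have hd : (dg τ).det ≠ 0 := by simp [det_fin_two, h0]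
  have cn : ∀ {a b : SL(2, K)}, (a : M2 K) * dg τ = (b : M2 K) * dg τ → a = b := fun e' =>
    Subtype.ext (H52.FW.cancel_right hd e')
  have cm : ∀ a b : SL(2, K), ((a * b : SL(2, K)) : M2 K) = (a : M2 K) * (b : M2 K) := fun _ _ => rfl
  have c1 : ((1 : SL(2, K)) : M2 K) = 1 := rfl
  let M : Subgroup SL(2, K) :=
    { carrier := {x | ∀ y : SL(2, K), (y : M2 K) * dg τ = dg τ * (x : M2 K) → h * f x * h⁻¹ = f y}
      one_mem' := fun y e' => by
        rw [cn (a := y) (b := 1) (by rw [e', c1, Matrix.mul_one, Matrix.one_mul])]; simp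
      mul_mem' := fun {a b} ha hb y e' => by
        obtain ⟨a', ea⟩ := H52.FW.exists_cj hd a
        obtain ⟨b', eb⟩ := H52.FW.exists_cj hd b
        rw [cn (a := y) (b := a' * b') (by
          rw [e', cm, cm, Matrix.mul_assoc, eb,
            ← Matrix.mul_assoc, ← Matrix.mul_assoc, ea]), map_mul, map_mul, ← ha a' ea, ← hb b' eb]
        group
      inv_mem' := fun {a} ha y e' => by
        obtain ⟨a', ea⟩ := H52.FW.exists_cj hd a
        have : y * a' = 1 := cn (by
          rw [cm, Matrix.mul_assoc, ea, ← Matrix.mul_assoc, e', Matrix.mul_assoc, ← cm,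
            inv_mul_cancel, c1, Matrix.mul_one, Matrix.one_mul])
        rw [eq_inv_of_mul_eq_one_left this, map_inv, map_inv, ← ha a' ea]
        group }
  have hM : M = ⊤ := by
    refine eq_top_of_upT_loT (fun t y e' => ?_) fun c y e' => ?_
    · rw [e, cn (a := y) (b := upT (τ * t)) (e'.trans ?_)]
      ext i j
      fin_cases i <;> fin_cases j <;> simp [upT, H64.SL2.mk, mul_apply, Fin.sum_univ_two]
    · have ey : y = loT (c * τ⁻¹) := cn (e'.trans (by
        ext i j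
        fin_cases i <;> fin_cases j <;> simp [loT, H64.SL2.mk, mul_apply, Fin.sum_univ_two, h0]))
      rw [ey]
      by_cases hc : c = 0
      · have : loT (0 : K) = 1 := by simp only [H64.SL2.ent, loT]; simp
        rw [hc, zero_mul, this]; simp
      · have ht : -c⁻¹ ≠ 0 := neg_ne_zero.2 (inv_ne_zero hc)
        have m1 := (hm _ ht).cj hh (j := i) ⟨rfl, rfl, fun _ => rfl⟩
        rw [e] at m1
        have := m1.uniq_l (hm _ (mul_ne_zero h0 ht))
        rw [show -(-c⁻¹)⁻¹ = c by simp, show -(τ * -c⁻¹)⁻¹ = c * τ⁻¹ by field_simp] at this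
        exact this
  exact ⟨hd, fun x y e' => (hM ▸ Subgroup.mem_top x : x ∈ M) y e'⟩

end H73.FS6
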