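import Mathlib
import Cfsg.Agent.Lib.FS6.Dz

/-! The adjoint is a square.  See `blueprint/FS6/README.md`. -/

set_option autoImplicit false
set_option linter.unusedSectionVars false

open Matrix H24 H63.St H73.FW H80.FS6 H80.FS6.W6
open H52.FW (M2 wS dS Act)
open scoped MatrixGroups commutatorElement

namespace H73.FS6

theorem HS.Is.exists_sq {F J E : Type*} [Field F] [Finite F] [AddCommGroup J] [Module F J] [Field E] [Finite E]
    {S : HS F J} {ι : F →+* E} {φ : E ≃+ J} (h : S.Is ι φ) {α : E} (h0 : α ≠ 0) :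
    ∃ γ, γ ^ 2 * α = ι (S.N (φ α)) ∧ S.N (φ γ) = S.N (φ α) := by
  classical
  have nι : ∀ t, S.N (φ (ι t)) = t ^ 3 := fun t => by
    have := h.smul t 1
    rw [mul_one] at this
    rw [this, S.N_smul, h.one, S.N_e, mul_one]
  have nne : ∀ x, x ≠ 0 → S.N (φ x) ≠ 0 := fun x hx => S.N_ne _ (by simpa using hx)
  have nneg : ∀ x, S.N (φ (-x)) = -S.N (φ x) := fun x => by
    have : -x = ι (-1) * x := by simp
    rw [this, h.mul, nι]; ring
  have a0 := nne α h0
  set β : E := ι (S.N (φ α)) * α⁻¹ with hβ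
  have βα : β * α = ι (S.N (φ α)) := by rw [hβ, inv_mul_cancel_right₀ h0]
  have nβ : S.N (φ β) = S.N (φ α) ^ 2 := by
    have := h.mul β α
    rw [βα, nι] at this
    apply mul_right_cancel₀ a0
    rw [← this]; ring
  have β0 : β ≠ 0 := mul_ne_zero ((map_ne_zero ι).2 a0) (inv_ne_zero h0)
  have sq : IsSquare β := by
    have := Fintype.ofFinite E
    by_cases h2 : ringChar E = 2
    · exact FiniteField.isSquare_of_char_two h2 β
    have h2' : ringChar F ≠ 2 := by
      intro e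
      apply h2
      have : CharP F 2 := ringChar.of_eq e
      have : CharP E 2 := charP_of_injective_ringHom ι.injective 2
      exact ringChar.eq E 2
    obtain ⟨t0, ht0⟩ := FiniteField.exists_nonsquare h2'
    have t00 : t0 ≠ 0 := fun e => ht0 (e ▸ IsSquare.zero)
    have key : ∀ c d : F, c ≠ 0 → c ^ 2 * t0 ^ 3 ≠ d * d := fun c d hc e =>
      ht0 ⟨d / (c * t0), by field_simp; linear_combination e⟩
    have n1 : ¬ IsSquare (ι t0) := by
      rintro ⟨γ, e⟩
      refine key 1 (S.N (φ γ)) one_ne_zero ?_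
      rw [← h.mul, ← e, nι]; ring
    by_contra n2
    have q1 := quadraticChar_neg_one_iff_not_isSquare.2 n1
    have q2 := quadraticChar_neg_one_iff_not_isSquare.2 n2
    have q3 : quadraticChar E (β * ι t0) = 1 := by rw [map_mul, q1, q2]; norm_num
    obtain ⟨γ, e⟩ := (quadraticChar_one_iff_isSquare (mul_ne_zero β0 ((map_ne_zero ι).2 t00))).1 q3
    refine key (S.N (φ α)) (S.N (φ γ)) a0 ?_
    rw [← h.mul, ← e, h.mul, nβ, nι]
  obtain ⟨γ, e⟩ := sq
  have e2 : S.N (φ γ) ^ 2 = S.N (φ α) ^ 2 := by rw [← nβ, e, h.mul]; ring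
  rcases sq_eq_sq_iff_eq_or_eq_neg.1 e2 with e3 | e3
  · exact ⟨γ, by rw [← βα, e]; ring, e3⟩
  · exact ⟨-γ, by rw [← βα, e]; ring, by rw [nneg, e3, neg_neg]⟩

end H73.FS6
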