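import Mathlib
import Cfsg.Agent.Lib.FS6.SL
import Cfsg.Agent.Lib.FS6.Sq

/-! Finite Moufang hexagons: the short root `SL₂`.  See `blueprint/FS6/README.md`. -/

set_option autoImplicit false
set_option maxHeartbeats 400000
set_option linter.unusedSectionVars false

open Matrix H24 H63.St H73.FW H80.FS6 H80.FS6.W6
open H52.FW (M2 wS dS Act)
open scoped MatrixGroups commutatorElement

namespace H73.FS6

theorem Hz.exists_hex {G F J E : Type*} [Group G] {A : W6 G} [Field F] [Finite F] [AddCommGroup J] [Module F J]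
    [Field E] [Finite E] (Z : Hz A F J) {ι : F →+* E} {φ : E ≃+ J} (h : Z.S.Is ι φ) :
    ∃ H : Hex G E F, H.X = A.U := by
  obtain ⟨x, hx⟩ : ∃ x : E → G, ∀ a, x a = Z.x1 (φ a) := ⟨_, fun _ => rfl⟩
  obtain ⟨y, hy⟩ : ∃ y : E → G, ∀ b, y b = Z.wa * x (-b) * Z.wa⁻¹ := ⟨_, fun _ => rfl⟩
  have px : Pa (A.U 1) x := ⟨fun a b => by rw [hx, hx, hx, map_add, Z.p1.add], fun g => ⟨fun hg => by
      obtain ⟨a, rfl⟩ := (Z.p1.mem g).1 hg
      exact ⟨φ.symm a, by rw [hx, AddEquiv.apply_symm_apply]⟩, by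
      rintro ⟨a, rfl⟩; rw [hx]; exact Z.p1.m _⟩,
    fun a e => by rw [hx] at e; exact φ.map_eq_zero_iff.1 (Z.p1.inj _ e)⟩
  have ne : ∀ {t : E}, t ≠ 0 → φ t ≠ 0 := fun ht e => ht (φ.map_eq_zero_iff.1 e)
  have Nn : ∀ {t : E}, t ≠ 0 → Z.S.N (φ t) ≠ 0 := fun ht => Z.S.N_ne _ (ne ht)
  have e0 : Z.S.e ≠ 0 := by rw [← h.one]; exact ne one_ne_zero
  have yt : ∀ t, t ≠ 0 → y (-t⁻¹) = Z.wa * Z.x1 (Z.S.inv (φ t)) * Z.wa⁻¹ := fun t ht => by
    rw [hy, neg_neg, hx, h.inv t ht]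
  have mt : ∀ t, t ≠ 0 → y (-t⁻¹) * x t * y (-t⁻¹) = Z.m (φ t) := fun t ht => by
    rw [yt t ht, hx, Z.m_eq]
  have k1 : ∀ t, t ≠ 0 → ∀ u, Z.m (φ t) * x u * (Z.m (φ t))⁻¹ = y (-(t⁻¹ ^ 2 * u)) := fun t ht u => by
    rw [hx, Z.m1 _ (ne ht), h.rho t ht, mul_assoc (ι _), h.smul, smul_smul, inv_mul_cancel₀ (Nn ht), one_smul,
      hy, neg_neg, hx]
  have k2 : ∀ t, t ≠ 0 → ∀ u, Z.m (φ t) * y u * (Z.m (φ t))⁻¹ = x (-(t ^ 2 * u)) := fun t ht u => by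
    have e1 := k1 t ht (-(t ^ 2 * u))
    rw [show -(t⁻¹ ^ 2 * -(t ^ 2 * u)) = u by field_simp] at e1
    have e2 := Z.mm1 _ (ne ht) (φ (-(t ^ 2 * u)))
    rw [← hx] at e2
    rw [← e1, ← e2]
    conv_lhs => rw [e2]
    group
  obtain ⟨f, fu, fl, fw, fm, fd⟩ := exists_sl (x := x) (y := y) (w := Z.wa) px.add hy
    (by have := mt 1 one_ne_zero; rwa [inv_one, h.one, Z.m_e] at this)
    (fun t ht u => by rw [mt t ht]; exact k1 t ht u) (fun t ht u => by rw [mt t ht]; exact k2 t ht u)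
  have fd' : ∀ t ht, f (dS t ht) = Z.m (φ t) * Z.wa⁻¹ := fun t ht => by rw [fd, mt t ht]
  have aa : Acts A.U Z.wa (Equiv.subLeft (2 * 1 + 6)) := by
    obtain ⟨u, v, u', m, e⟩ := Z.ma
    rw [e]; exact m.acts
  have ab : Acts A.U Z.wb (Equiv.subLeft (2 * 6 + 6)) := by
    obtain ⟨u, u', m, e⟩ := Z.mb
    rw [e]; exact m.acts
  have mua : ∀ t, t ≠ 0 → Mu A 1 (f (loT (-t⁻¹))) (f (upT t)) (f (loT (-t⁻¹))) := fun t ht => by
    rw [fl, fu, yt t ht, hx]; exact Z.mu _ (ne ht)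
  have mub : ∀ t, t ≠ 0 → Mu A 6 (Z.fb (loT (-t⁻¹))) (Z.fb (upT t)) (Z.fb (loT (-t⁻¹))) := fun t ht => by
    have l : Z.fb (loT (-t⁻¹)) ∈ A.U (6 + 6) := U_eq ((Z.X0 _).2 ⟨_, rfl⟩) (by decide)
    refine ⟨l, by rw [Z.up]; exact Z.p6.m t, l, by rw [Z.up]; exact Z.p6.ne ht, ?_⟩
    rw [← map_mul, ← map_mul, NF.mu_eq ht, map_mul, Z.w]
    have := (Z.tb t ht).mul ab
    rwa [one_mul] at this
  have mme : ∀ i ∈ ([2, 3, 5, 6] : List (ZMod 12)), ∀ g ∈ A.U i, Z.wa * Z.wa * g * (Z.wa * Z.wa)⁻¹ = g⁻¹ := by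
    have := Z.mm _ e0
    rwa [Z.m_e] at this
  have ta1 : ∀ s hs, Acts A.U (f (dS s hs)) 1 := fun s hs => by
    have h1 := (Z.mu _ (ne hs)).acts
    rw [← Z.m_eq] at h1
    have := h1.mul aa.inv
    rwa [mul_inv_cancel, ← fd' s hs] at this
  have ta2 : ∀ s hs, Act Z.fb (f (dS s hs)) (dg (Z.S.N (φ s))⁻¹) := fun s hs => by
    refine act_of_tor mub (ta1 s hs) (inv_ne_zero (Nn hs)) fun t => ?_
    have e1 := mme 6 (by decide) _ (Z.p6.m (-t))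
    rw [Z.p6.neg, neg_neg] at e1
    have e2 := Z.m6 _ (ne hs) ((Z.S.N (φ s))⁻¹ * -t)
    rw [mul_inv_cancel_left₀ (Nn hs)] at e2
    have e3 := Z.mm _ (ne hs) 6 (by decide) _ (Z.p6.m ((Z.S.N (φ s))⁻¹ * -t))
    rw [Z.p6.neg, ← mul_neg, neg_neg] at e3
    rw [Z.up, Z.up, fd', ← e3, ← e1]
    calc _ = Z.m (φ s) * (Z.wa * Z.x6 (-t) * Z.wa⁻¹) * (Z.m (φ s))⁻¹ := by group
      _ = _ := by rw [← e2]; group
  have tb2 : ∀ t ht, Act f (Z.fb (dS t ht)) (dg (ι t⁻¹)) := fun t ht => by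
    refine act_of_tor mua (Z.tb t ht) ((map_ne_zero ι).2 (inv_ne_zero ht)) fun a => ?_
    rw [fu, fu, hx, hx, Z.sm, h.smul]
  have y7 : ∀ t, y t ∈ A.U (1 + 6) := fun t => by rw [hy]; exact U_cj aa (px.m _) (by decide)
  have inja : Function.Injective f := by
    refine sl_inj (A := A) (i := 1) (fun t => by rw [fu]; exact px.m t) (fun t => by rw [fl]; exact y7 t)
      (fun t e => ?_) (or_iff_not_imp_right.2 fun e => ?_)
    · rw [fl, hy, conj_eq_one_iff] at e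
      exact neg_eq_zero.1 (px.inj _ e)
    · have e1 := mme 6 (by decide) _ (Z.p6.m 1)
      rw [← fm, not_not.1 e, Z.p6.neg, one_mul, inv_one, mul_one] at e1
      have e2 : (2 : F) = 0 := by linear_combination Z.p6.eq e1
      rw [← map_ofNat ι 2, e2, map_zero]
  refine ⟨⟨A.U, f, Z.fb, inja, Z.injb, fun g => ?_, fun g => ?_, fun g => ?_, Z.X0, ?_, ?_,
    fun s hs => ⟨ta1 s hs, _, ta2 s hs⟩, fun t ht => ⟨Z.tb t ht, _, tb2 t ht⟩, fun α hα τ hτ => ?_,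
    fun p hp a ha b hb => ?_, fun a ha b hb => S_one (cmS ha hb [2]), fun a ha b hb => S_one (cmS ha hb [4]),
    fun a ha b hb => U_eq (Z.lng.c4 2 (by decide) a ha b (U_eq hb (by decide))) (by decide),
    fun a ha b hb => ?_, fun a ha b hb => ?_, ?_, fun g hg => ?_, fun g h1 h2 => ?_⟩, rfl⟩
  · simp only [fu]; exact px.mem g
  · simp only [fl]
    refine ⟨fun hg => ?_, by rintro ⟨a, rfl⟩; exact U_eq (y7 a) (by decide)⟩
    obtain ⟨a, e⟩ := (px.mem _).1 (U_cj (j := 1) aa.inv hg (by decide))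
    exact ⟨-a, by rw [hy, neg_neg, ← e]; group⟩
  · simp only [Z.up]; exact Z.p6.mem g
  · rw [fw, show (8 : ZMod 12) = 2 * 1 + 6 by decide]; exact aa
  · rw [Z.w, show Equiv.subLeft (6 : ZMod 12) = Equiv.subLeft (2 * 6 + 6) from congrArg _ (by decide)]; exact ab
  · obtain ⟨γ, g1, g2⟩ := h.exists_sq hα
    have hγ : γ ≠ 0 := fun e => by
      rw [e, zero_pow two_ne_zero, zero_mul] at g1
      exact (map_ne_zero ι).2 (Nn hα) g1.symm
    have ht : τ ^ 2 * Z.S.N (φ α) ≠ 0 := mul_ne_zero (pow_ne_zero _ hτ) (Nn hα)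
    have hι : ι τ ≠ 0 := (map_ne_zero ι).2 hτ
    have hs : ι τ * (α * γ) ≠ 0 := mul_ne_zero hι (mul_ne_zero hα hγ)
    refine ⟨f (dS _ hs) * Z.fb (dS _ ht), ?_, ?_⟩
    · have := NF.act_mul (NF.act_d f hs) (tb2 _ ht)
      rwa [show (ι τ * (α * γ)) ^ 2 * ι (τ ^ 2 * Z.S.N (φ α))⁻¹ = α by
        rw [map_inv₀, map_mul, map_pow, ← g1]; field_simp] at this
    · have := NF.act_mul (ta2 _ hs) (NF.act_d Z.fb ht)
      have n0 := Nn hα
      rwa [show (Z.S.N (φ (ι τ * (α * γ))))⁻¹ * (τ ^ 2 * Z.S.N (φ α)) ^ 2 = τ by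
        rw [h.smul, Z.S.N_smul, h.mul, g2]; field_simp] at this
  · simp only [List.mem_cons, List.not_mem_nil, or_false] at hp
    rcases hp with rfl | rfl | rfl | rfl | rfl | rfl | rfl | rfl | rfl | rfl
    all_goals exact lc Z.lng ha hb (by decide)
  · refine S_le (l := [2, 3, 4]) ?_ (cmS ha hb [2, 3, 4])
    simp only [List.forall_mem_cons, List.not_mem_nil, false_imp_iff, implies_true, and_true]
    exact ⟨le_sup_of_le_left le_sup_left, le_sup_of_le_left le_sup_right, le_sup_right⟩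
  · refine S_le (l := [2, 3, 4, 5]) ?_ (cmS ha hb [2, 3, 4, 5])
    simp only [List.forall_mem_cons, List.not_mem_nil, false_imp_iff, implies_true, and_true]
    exact ⟨le_sup_of_le_left (le_sup_of_le_left le_sup_left), le_sup_of_le_left (le_sup_of_le_left le_sup_right),
      le_sup_of_le_left le_sup_right, le_sup_right⟩
  · rw [fm]; exact mme
  · obtain ⟨a, rfl⟩ := (Z.p1.mem g).1 hg
    have e : (-1 : SL(2, F)) = dS (-1) (neg_ne_zero.2 one_ne_zero) := by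
      ext i j
      fin_cases i <;> fin_cases j <;> simp [dS, H64.SL2.coe_mk]
    rw [e, Z.sm, Z.p1.neg, inv_neg, inv_one, neg_smul, one_smul]
  · refine sep (W := A) (l := [1, 2, 3, 4, 5, 6]) (l' := [7, 8, 9, 10, 11, 0]) (NF.ml h1 ?_) (NF.ml h2 ?_)
    all_goals
      exact sup_le (sup_le (sup_le (sup_le (sup_le (fun _ k => mS k) fun _ k => mS k) fun _ k => mS k)
        fun _ k => mS k) fun _ k => mS k) fun _ k => mS k

end H73.FS6
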