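import Mathlib
import Cfsg.Agent.Lib.FS6.Defs
import Cfsg.Agent.Lib.FS.Defs
import Cfsg.Agent.Lib.Stein.SLaced

/-! In a finite Moufang hexagon one class of root groups consists of central elations. -/

set_option autoImplicit false

open scoped commutatorElement

namespace H80.FS6

open H63.St

namespace W6

variable {G : Type*} [Group G] {W : W6 G} {i j c : ZMod 12} {x y a v m : G}

/-- central elations -/
def V (W : W6 G) (i : ZMod 12) : Subgroup G where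
  carrier := {v | v ∈ W.U i ∧ ∀ j, (j - i + 3).val ≤ 6 → ∀ y ∈ W.U j, Commute v y}
  one_mem' := ⟨one_mem _, fun _ _ _ _ => Commute.one_left _⟩
  mul_mem' h h' := ⟨mul_mem h.1 h'.1, fun j k y hy => (h.2 j k y hy).mul_left (h'.2 j k y hy)⟩
  inv_mem' h := ⟨inv_mem h.1, fun j k y hy => (h.2 j k y hy).inv_left⟩

theorem V.cm (hv : v ∈ W.V i) (hy : y ∈ W.U j) (h : (j - i + 3).val ≤ 6 := by decide) :
    Commute v y := hv.2 j h y hy

theorem V_act (hm : Acts W.U m (Equiv.subLeft c)) (hv : v ∈ W.V i) (j : ZMod 12)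
    (h : c - i = j := by decide) : m * v * m⁻¹ ∈ W.V j := by
  subst h
  refine ⟨act hm hv.1 _ rfl, fun k hk y hy => ?_⟩
  have e : ∀ c i k : ZMod 12, (k - (c - i) + 3).val ≤ 6 → (c - k - i + 3).val ≤ 6 := by decide
  have := (hv.2 _ (e c i k hk) _ (act (act_inv hm) hy _ rfl)).map (MulAut.conj m)
  simpa [mul_assoc] using this

theorem V_rv : v ∈ (W.rv c).V i ↔ v ∈ W.V (-i + c) := by
  have e : ∀ i j : ZMod 12, (j - i + 3).val ≤ 6 → (i - j + 3).val ≤ 6 := by decide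
  refine and_congr Iff.rfl ⟨fun h j k y hy => h (c - j) ?_ y ?_, fun h j k y hy => h (-j + c) ?_ y hy⟩
  · have := e _ _ k
    rwa [show -i + c - j = c - j - i by ring] at this
  · rwa [rv_U, show -(c - j) + c = j by ring]
  · have := e _ _ k
    rwa [show i - j = -j + c - (-i + c) by ring] at this

theorem V_sh : v ∈ (W.sh c).V i ↔ v ∈ W.V (i + c) := by
  refine and_congr Iff.rfl ⟨fun h j k y hy => h (j - c) ?_ y ?_, fun h j k y hy => h (j + c) ?_ y hy⟩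
  · rwa [show j - c - i = j - (i + c) by ring]
  · rwa [sh_U, sub_add_cancel]
  · rwa [show j + c - (i + c) = j - i by ring]

theorem toSh (hx : x ∈ W.U j) (c i : ZMod 12) (h : i + c = j := by decide) : x ∈ (W.sh c).U i := by
  rw [sh_U, h]; exact hx

theorem ofSh (hx : x ∈ (W.sh c).U i) (j : ZMod 12) (h : i + c = j := by decide) : x ∈ W.U j := by
  rw [sh_U, h] at hx; exact hx

theorem toRv (hx : x ∈ W.U j) (c i : ZMod 12) (h : -i + c = j := by decide) : x ∈ (W.rv c).U i := by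
  rw [rv_U, h]; exact hx

theorem ofRv (hx : x ∈ (W.rv c).U i) (j : ZMod 12) (h : -i + c = j := by decide) : x ∈ W.U j := by
  rw [rv_U, h] at hx; exact hx

theorem mu' (hx : x ∈ W.U i) (h : x ≠ 1) (j c : ZMod 12) (k : i + 6 = j ∧ 2 * i + 6 = c := by decide) :
    ∃ u ∈ W.U j, ∃ u' ∈ W.U j, Acts W.U (u * x * u') (Equiv.subLeft c) := by
  rw [← k.1, ← k.2]; exact W.mu i x hx h

theorem exists_act (W : W6 G) (i : ZMod 12) : ∃ m, Acts W.U m (Equiv.subLeft (2 * i + 6)) := by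
  obtain ⟨x, hx, h⟩ := W.ne i
  obtain ⟨u, -, u', -, a⟩ := W.mu i x hx h
  exact ⟨_, a⟩

theorem lemC (hv : v ∈ W.U 4) (h4 : ∀ y ∈ W.U 4, Commute v y) (h6 : ∀ y ∈ W.U 6, Commute v y)
    (h7 : ∀ y ∈ W.U 7, Commute v y) : v ∈ W.V 4 := by
  have h1 : ∀ y ∈ W.U 1, Commute v y := fun a ha => by
    by_cases a1 : a = 1
    · rw [a1]; exact Commute.one_right _
    obtain ⟨u, hu, u', hu', hm⟩ := mu' ha a1 7 8
    have k1 := nrm' (i := 7) hu (mS (l := [4, 5, 6]) (act hm hv 4))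
    have k2 : ⁅a, v⁆ = u⁻¹ * (u * a * u' * v * (u * a * u')⁻¹) * u * v⁻¹ := by
      rw [mul_assoc _ u', ← (h7 u' hu').eq, commutatorElement_def]; group
    exact (commutatorElement_eq_one_iff_commute.1
      (sep (cmS ha hv [2, 3]) (k2 ▸ mul_mem k1 (inv_mem (mS hv))))).symm
  have h2 : ∀ y ∈ W.U 2, Commute v y := fun y hy => by
    obtain ⟨a, ha, a1⟩ := W.ne 1
    obtain ⟨u, hu, u', hu', hm⟩ := mu' ha a1 7 8
    have k := ((h7 u hu).mul_right (h1 a ha)).mul_right (h7 u' hu')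
    have := ((k.inv_right.mul_right (h6 _ (act hm hy 6))).mul_right k)
    simpa [mul_assoc] using this
  refine ⟨hv, fun j hj y hy => ?_⟩
  have e : ∀ j : ZMod 12, (j - 4 + 3).val ≤ 6 →
      j = 1 ∨ j = 2 ∨ j = 3 ∨ j = 4 ∨ j = 5 ∨ j = 6 ∨ j = 7 := by decide
  rcases e j hj with rfl | rfl | rfl | rfl | rfl | rfl | rfl
  exacts [h1 y hy, h2 y hy, c1 hv hy, h4 y hy, c1 hv hy, h6 y hy, h7 y hy]

theorem cen_lo {z : G} (hz : z ∈ W.S [1, 2, 3, 4, 5, 6]) (h : ∀ y ∈ W.U 6, Commute z y) :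
    z ∈ W.S [3, 4, 5, 6] := by
  obtain ⟨c, hc, c1⟩ := W.ne 6
  have k : z * c * z⁻¹ = c := by rw [(h c hc).eq, mul_inv_cancel_right]
  obtain ⟨a, ha, q, hq, rfl⟩ := dec hz
  have a1 : a = 1 := by_contra fun a1 => c1 (lemN (W := W.sh (-1)) ha a1
    (by rw [sh_S]; exact mono hq) (by rw [sh_S]; exact mS hc) (by rw [sh_S, k]; exact mS hc))
  subst a1
  obtain ⟨b, hb, r, hr, rfl⟩ := dec hq
  rw [one_mul] at k ⊢
  have a1 : b = 1 := by_contra fun a1 => c1 (lemN hb a1 (mono hr) (mS hc) (by rw [k]; exact mS hc))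
  rwa [a1, one_mul]

theorem exists_V [Finite G] {p : ℕ} [Fact p.Prime] (hp : IsPGroup p (W.S [1, 2, 3, 4, 5, 6])) :
    ∃ i, ∃ v ∈ W.V i, v ≠ 1 := by
  haveI : Nontrivial (W.S [1, 2, 3, 4, 5, 6]) := by
    obtain ⟨x, hx, x1⟩ := W.ne 1
    exact ⟨⟨⟨x, mS hx⟩, 1, fun e => x1 (congrArg Subtype.val e)⟩⟩
  haveI := hp.center_nontrivial
  obtain ⟨⟨⟨z, hz⟩, hc⟩, z1⟩ := exists_ne (1 : Subgroup.center (W.S [1, 2, 3, 4, 5, 6]))
  replace z1 : z ≠ 1 := fun e => z1 (Subtype.ext (Subtype.ext e))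
  have cz : ∀ y ∈ W.S [1, 2, 3, 4, 5, 6], Commute z y := fun y hy =>
    (congrArg Subtype.val (Subgroup.mem_center_iff.1 hc ⟨y, hy⟩)).symm
  have h1 := cen_lo hz fun y hy => cz y (mS hy)
  have h2 : z ∈ W.S [4, 3, 2, 1] := by
    have := cen_lo (W := W.rv 7) (z := z) (by rw [rv_S]; exact mono hz) fun y hy => cz y (mS (ofRv hy 1))
    rwa [rv_S] at this
  obtain ⟨z3, h3, b, hb, e⟩ := dec h1
  obtain ⟨z4, h4, s, hs, rfl⟩ := dec hb
  have s1 : s = 1 := sep (l := [4, 3, 2, 1])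
    (by rw [show s = z4⁻¹ * (z3⁻¹ * z) by rw [e]; group]
        exact mul_mem (inv_mem (mS h4)) (mul_mem (inv_mem (mS h3)) h2)) hs
  rw [s1, mul_one] at e
  have k4 : ∀ y ∈ W.S [1, 2, 3, 4, 5, 6], Commute z3 y → Commute z4 y := fun y hy k => by
    rw [show z4 = z3⁻¹ * z by rw [e]; group]
    exact k.inv_left.mul_left (cz y hy)
  have k3 : ∀ y ∈ W.S [1, 2, 3, 4, 5, 6], Commute z4 y → Commute z3 y := fun y hy k => by
    rw [show z3 = z * z4⁻¹ by rw [e]; group]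
    exact (cz y hy).mul_left k.inv_left
  by_cases h : ∀ y ∈ W.U 1, Commute z3 y
  · by_cases z41 : z4 = 1
    · rw [z41, mul_one] at e
      subst e
      exact ⟨_, z, V_sh.1 (lemC (toSh h3 (-1) 4) (fun y hy => cz y (mS (ofSh hy 3)))
        (fun y hy => cz y (mS (ofSh hy 5))) fun y hy => cz y (mS (ofSh hy 6))), z1⟩
    · exact ⟨_, z4, V_rv.1 (lemC (toRv h4 8 4) (fun y hy => k4 y (mS (ofRv hy 4)) (c1 h3 (ofRv hy 4)))
        (fun y hy => k4 y (mS (ofRv hy 2)) (c1 h3 (ofRv hy 2)))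
        fun y hy => k4 y (mS (ofRv hy 1)) (h y (ofRv hy 1))), z41⟩
  · push Not at h
    obtain ⟨a, ha, n⟩ := h
    have c3 : ∀ y ∈ W.S [2, 3, 4, 5], Commute z3 y := fun y hy =>
      (S_le (H := Subgroup.centralizer {z3}) (by
        simp only [List.forall_mem_cons, List.not_mem_nil, false_imp_iff, implies_true, and_true]
        refine ⟨fun y hy => ?_, fun y hy => ?_, fun y hy => ?_, fun y hy => ?_⟩ <;>
          rw [Subgroup.mem_centralizer_singleton_iff]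
        exacts [(c1 h3 hy).symm, (k3 y (mS hy) (c1 h4 hy)).symm, (c1 h3 hy).symm,
          (k3 y (mS hy) (c1 h4 hy)).symm]) hy |> Subgroup.mem_centralizer_singleton_iff.1).symm
    have cb : ∀ y ∈ W.S [2, 3, 4, 5], Commute ⁅a, z3⁆ y := fun y hy => by
      have := (c3 _ (nrm' ha hy)).map (MulAut.conj a)
      rw [commutatorElement_def]
      refine Commute.mul_left ?_ (c3 y hy).inv_left
      simpa [mul_assoc] using this
    exact ⟨_, ⁅a, z3⁆, V_sh.1 (lemC (toSh (S_one (cmS ha h3 [2])) (-2) 4)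
      (fun y hy => cb y (mS (ofSh hy 2))) (fun y hy => cb y (mS (ofSh hy 4)))
      fun y hy => cb y (mS (ofSh hy 5))),
      fun e => n (commutatorElement_eq_one_iff_commute.1 e).symm⟩

theorem b1 {u u' : G} (hv : v ∈ W.V 2) (ha : a ∈ W.U 6) (hu : u ∈ W.U 0) (hu' : u' ∈ W.U 0)
    (hm : Acts W.U (u * a * u') (Equiv.subLeft 6)) :
    a * v * a⁻¹ = u⁻¹ * (u * a * u' * v * (u * a * u')⁻¹) * u ∧
      ∃ w ∈ W.U 3, a * v * a⁻¹ = v * w * (u * a * u' * v * (u * a * u')⁻¹) := by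
  have h4 := act hm hv.1 4
  have e : a * v * a⁻¹ = u⁻¹ * (u * a * u' * v * (u * a * u')⁻¹) * u := by
    rw [mul_assoc _ u', ← (V.cm hv hu').eq]; group
  refine ⟨e, ?_⟩
  generalize u * a * u' * v * (u * a * u')⁻¹ = t at h4 e
  have h1 : v⁻¹ * (a * v * a⁻¹) * t⁻¹ ∈ W.S [3, 4, 5] := by
    rw [show v⁻¹ * (a * v * a⁻¹) = ⁅v⁻¹, a⁆ by rw [commutatorElement_def]; group]
    exact mul_mem (cmS (inv_mem hv.1) ha _) (inv_mem (mS h4))
  have h2 : v⁻¹ * (a * v * a⁻¹) * t⁻¹ ∈ W.S [1, 2, 3] := by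
    rw [e, show v⁻¹ * (u⁻¹ * t * u) * t⁻¹ = v⁻¹ * ⁅u⁻¹, t⁆ by rw [commutatorElement_def]; group]
    exact mul_mem (inv_mem (mS hv.1)) (cmS (inv_mem hu) h4 _)
  obtain ⟨w, hw, s, hs, e2⟩ := dec h1
  have s1 : s = 1 := sep (l := [1, 2, 3])
    (by rw [show s = w⁻¹ * (v⁻¹ * (a * v * a⁻¹) * t⁻¹) by rw [e2]; group]
        exact mul_mem (inv_mem (mS hw)) h2) hs
  exact ⟨w, hw, by rw [← mul_inv_eq_iff_eq_mul, ← inv_mul_eq_iff_eq_mul, ← mul_assoc, e2, s1, mul_one]⟩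

theorem b1' (hv : v ∈ W.V 2) (ha : a ∈ W.U 6) :
    ∃ w ∈ W.U 3, ∃ t ∈ W.V 4, a * v * a⁻¹ = v * w * t := by
  by_cases a1 : a = 1
  · exact ⟨1, one_mem _, 1, one_mem _, by simp [a1]⟩
  obtain ⟨u, hu, u', hu', hm⟩ := mu' ha a1 0 6
  obtain ⟨-, w, hw, e⟩ := b1 hv ha hu hu' hm
  exact ⟨w, hw, _, V_act hm hv 4, e⟩

theorem b1r (hx : x ∈ W.U 2) (ha : a ∈ W.V 6) :
    ∃ w ∈ W.U 5, ∃ t ∈ W.V 4, x * a * x⁻¹ = a * w * t := by
  obtain ⟨w, hw, t, ht, e⟩ := b1' (W := W.rv 8) (V_rv.2 ha) hx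
  exact ⟨w, hw, t, V_rv.1 ht, e⟩

theorem b2 {w t : G} (hv : v ∈ W.V 2) (ha : a ∈ W.V 6) (hw : w ∈ W.U 3) (ht : t ∈ W.U 4)
    (e : a * v * a⁻¹ = v * w * t) : w = 1 := by
  obtain ⟨w', hw', t', ht', e'⟩ := b1r (inv_mem hv.1) ha
  have h1 : w * t = a * w' * t' * a⁻¹ := by
    rw [← e', show w * t = v⁻¹ * (a * v * a⁻¹) by rw [e]; group]; group
  refine sep (l := [3]) (l' := [4, 5]) (mS hw) ?_
  rw [show w = a * (w' * t') * a⁻¹ * t⁻¹ by rw [← mul_assoc, ← h1]; group]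
  exact mul_mem (nrm ha.1 (mul_mem (mS hw') (mS ht'.1))) (inv_mem (mS ht))

theorem b3 [Finite G] (hv : v ∈ W.V 2) (v1 : v ≠ 1) (ha : a ∈ W.U 6) (h : v⁻¹ * (a * v * a⁻¹) ∈ W.V 4) :
    a ∈ W.V 6 := by
  have inj : ∀ a ∈ W.U 6, ∀ b ∈ W.U 6, v⁻¹ * (a * v * a⁻¹) = v⁻¹ * (b * v * b⁻¹) → a = b :=
    fun a ha b hb e => by
    have hc := mul_mem (inv_mem hb) ha
    have k : v * 1 * (b⁻¹ * a) * (v * 1)⁻¹ = b⁻¹ * a := by
      rw [show v * 1 * (b⁻¹ * a) = b⁻¹ * (b * v * b⁻¹) * a by group, ← mul_left_cancel e]; group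
    exact (inv_mul_eq_one.1 (lemN hv.1 v1 (one_mem _) (mS hc) (by rw [k]; exact mS hc))).symm
  let φ : W.V 6 → W.V 4 := fun b => ⟨v⁻¹ * (b * v * (b : G)⁻¹), by
    obtain ⟨w, hw, t, ht, e⟩ := b1' hv b.2.1
    rw [e, b2 hv b.2 hw ht.1 e]
    simpa using ht⟩
  obtain ⟨m, hm⟩ := W.exists_act 2
  have hc : Nat.card (W.V 6) = Nat.card (W.V 4) := card_eq_of_conj (g := m) fun x =>
    ⟨fun hx => V_act hm hx 4, fun hx => by simpa [mul_assoc] using V_act (act_inv hm) hx 6⟩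
  have bij : Function.Bijective φ := (Nat.bijective_iff_injective_and_card φ).2
    ⟨fun b b' e => Subtype.ext (inj _ b.2.1 _ b'.2.1 (congrArg Subtype.val e)), hc⟩
  obtain ⟨b, hb⟩ := bij.2 ⟨_, h⟩
  rw [← inj _ b.2.1 _ ha (congrArg Subtype.val hb)]
  exact b.2

theorem b4 [Finite G] {u u' : G} (h2 : ∃ v ∈ W.V 2, v ≠ 1) (ha : a ∈ W.V 6) (hu : u ∈ W.U 0)
    (hu' : u' ∈ W.U 0) (hm : Acts W.U (u * a * u') (Equiv.subLeft 6)) : u ∈ W.V 0 := by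
  obtain ⟨v, hv, v1⟩ := h2
  obtain ⟨e, w, hw, e'⟩ := b1 hv ha.1 hu hu' hm
  have ht := V_act hm hv 4
  have t1 : u * a * u' * v * (u * a * u')⁻¹ ≠ 1 := fun e => v1 (conj_eq_one_iff.1 e)
  generalize u * a * u' * v * (u * a * u')⁻¹ = t at e e' ht t1
  rw [b2 hv ha hw ht.1 e', mul_one, e] at e'
  have := b3 (W := W.rv 6) (v := t) (a := u⁻¹) (V_rv.2 ht) t1 (inv_mem hu) (V_rv.2 (by
    rw [inv_inv, e', (V.cm hv ht.1).eq, inv_mul_cancel_left]; exact hv))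
  simpa using inv_mem (V_rv.1 this)

theorem V_all (h : ∃ v ∈ W.V i, v ≠ 1) (j : ZMod 12) (k : ∃ c, 2 * c + 6 - i = j := by decide) :
    ∃ v ∈ W.V j, v ≠ 1 := by
  obtain ⟨v, hv, v1⟩ := h
  obtain ⟨c, k⟩ := k
  obtain ⟨m, hm⟩ := W.exists_act c
  exact ⟨_, V_act hm hv j k, by simpa using v1⟩

theorem b5 [Finite G] (h2 : ∃ v ∈ W.V 2, v ≠ 1) (ha : a ∈ W.V 6) (a1 : a ≠ 1) :
    ∃ m, Acts W.U m (Equiv.subLeft 6) ∧ ∀ x ∈ W.U 2, m * x * m⁻¹ ∈ W.V 4 ∧ ⁅x⁻¹, a⁆ ∈ W.U 4 := by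
  obtain ⟨u, hu, u', hu', hm⟩ := mu' ha.1 a1 0 6
  have k' : u' ∈ W.V 0 := by
    have := b4 h2 (inv_mem ha) (inv_mem hu') (inv_mem hu) (by
      simpa [mul_assoc] using act_inv hm)
    simpa using inv_mem this
  refine ⟨_, hm, fun x hx => ?_⟩
  have hy := act hm hx 4
  have e : a * x * a⁻¹ = u⁻¹ * (u * a * u' * x * (u * a * u')⁻¹) * u := by
    rw [mul_assoc _ u', (V.cm k' hx).eq]; group
  generalize u * a * u' * x * (u * a * u')⁻¹ = y at hy e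
  obtain ⟨w, hw, t, ht, e'⟩ := b1r (inv_mem hx) ha
  have e2 : ⁅x⁻¹, a⁆ = t * w := by
    rw [commutatorElement_def, e', (V.cm ha hw).eq, mul_assoc w, (V.cm ha ht.1).eq, (V.cm ht hw).eq]; group
  have e3 : x * (t * w) = ⁅u⁻¹, y⁆ * y := by
    rw [← e2, commutatorElement_def, commutatorElement_def, inv_inv, inv_inv, ← e]; group
  have hs := cmS (inv_mem hu) hy [1, 2, 3]
  generalize ⁅u⁻¹, y⁆ = s at e3 hs
  have w1 : w = 1 := sep (l := [1, 2, 3, 4]) (l' := [5])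
    (by rw [show w = t⁻¹ * (x⁻¹ * (s * y)) by rw [← e3]; group]
        exact mul_mem (inv_mem (mS ht.1)) (mul_mem (inv_mem (mS hx)) (mul_mem (mono hs) (mS hy)))) (mS hw)
  rw [w1, mul_one] at e2 e3
  have y1 : y * t⁻¹ = 1 := sep (l := [1, 2, 3]) (l' := [4])
    (by rw [show y * t⁻¹ = s⁻¹ * x by rw [eq_inv_mul_iff_mul_eq, ← mul_assoc, ← e3]; group]
        exact mul_mem (inv_mem hs) (mS hx)) (mS (mul_mem hy (inv_mem ht.1)))
  exact ⟨mul_inv_eq_one.1 y1 ▸ ht, e2 ▸ ht.1⟩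

theorem U_le_V [Finite G] (h2 : ∃ v ∈ W.V 2, v ≠ 1) (hi : i.val % 2 = 0) (hx : x ∈ W.U i) :
    x ∈ W.V i := by
  obtain ⟨a, ha, a1⟩ := V_all h2 6
  obtain ⟨m, hm, h⟩ := b5 h2 ha a1
  have h4 : ∀ y ∈ W.U 4, y ∈ W.V 4 := fun y hy => by
    simpa [mul_assoc] using (h _ (act (act_inv hm) hy 2)).1
  have e : ∀ i : ZMod 12, i.val % 2 = 0 → ∃ c, 2 * c + 6 - i = 4 ∧ 2 * c + 6 - 4 = i := by decide
  obtain ⟨c, e1, e2⟩ := e i hi
  obtain ⟨n, hn⟩ := W.exists_act c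
  simpa [mul_assoc] using V_act (act_inv hn) (h4 _ (act hn hx 4 e1)) i e2

theorem c26 [Finite G] (h2 : ∃ v ∈ W.V 2, v ≠ 1) (hx : x ∈ W.U 2) (ha : a ∈ W.U 6) : ⁅x, a⁆ ∈ W.U 4 := by
  by_cases a1 : a = 1
  · simp [a1]
  obtain ⟨m, -, h⟩ := b5 h2 (U_le_V h2 (by decide) ha) a1
  simpa using (h _ (inv_mem hx)).2

theorem th {u u' b : G} (hu : u ∈ W.U 0) (hu' : u' ∈ W.V 0)
    (hm : Acts W.U (u * b * u') (Equiv.subLeft 6)) (hb : b ∈ W.U 6) (ha : a ∈ W.U 1) :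
    ∃ k ∈ W.S [2, 3, 4], b * a * b⁻¹ = a * k * (u * b * u' * a * (u * b * u')⁻¹) := by
  have h5 := act hm ha 5
  have e : b * a * b⁻¹ = u⁻¹ * (u * b * u' * a * (u * b * u')⁻¹) * u := by
    rw [mul_assoc _ u', (V.cm hu' ha).eq]; group
  generalize u * b * u' * a * (u * b * u')⁻¹ = t at h5 e
  have h1 : a⁻¹ * (b * a * b⁻¹) * t⁻¹ ∈ W.S [5, 2, 3, 4] := by
    rw [show a⁻¹ * (b * a * b⁻¹) = ⁅a⁻¹, b⁆ by rw [commutatorElement_def]; group]
    exact mul_mem (cmS (inv_mem ha) hb _) (inv_mem (mS h5))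
  have h2 : a⁻¹ * (b * a * b⁻¹) * t⁻¹ ∈ W.S [1, 2, 3, 4] := by
    rw [e, show a⁻¹ * (u⁻¹ * t * u) * t⁻¹ = a⁻¹ * ⁅u⁻¹, t⁆ by rw [commutatorElement_def]; group]
    exact mul_mem (inv_mem (mS ha)) (cmS (inv_mem hu) h5 _)
  obtain ⟨k, hk, s, hs, e2⟩ := dec' h1
  have s1 : s = 1 := sep (l := [1, 2, 3, 4]) (l' := [5])
    (by rw [show s = k⁻¹ * (a⁻¹ * (b * a * b⁻¹) * t⁻¹) by rw [e2]; group]
        exact mul_mem (inv_mem (mono hk)) h2) (mS hs)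
  exact ⟨k, hk, by rw [← mul_inv_eq_iff_eq_mul, ← inv_mul_eq_iff_eq_mul, ← mul_assoc, e2, s1, mul_one]⟩

theorem ab1 [Finite G] (h2 : ∃ v ∈ W.V 2, v ≠ 1) (hx : x ∈ W.U 1) (hy : y ∈ W.U 1) : Commute x y := by
  obtain ⟨b, hb, b1⟩ := W.ne 6
  obtain ⟨u, hu, u', hu', hm⟩ := mu' hb b1 0 6
  have hm' : Acts W.U (u'⁻¹ * b⁻¹ * u⁻¹) (Equiv.subLeft 6) := by simpa [mul_assoc] using act_inv hm
  have vb := U_le_V h2 (by decide) hb
  have key : ∀ a ∈ W.U 1, (u * b * u')⁻¹ * a * (u * b * u') = (u * b * u' * a * (u * b * u')⁻¹)⁻¹ :=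
    fun a ha => by
    obtain ⟨k, hk, e⟩ := th hu (U_le_V h2 (by decide) hu') hm hb ha
    obtain ⟨k', hk', e'⟩ := th (inv_mem hu') (U_le_V h2 (by decide) (inv_mem hu)) hm' (inv_mem hb) ha
    have h5 := act hm ha 5
    have h5' := act hm' ha 5
    rw [show u'⁻¹ * b⁻¹ * u⁻¹ * a * (u'⁻¹ * b⁻¹ * u⁻¹)⁻¹ = (u * b * u')⁻¹ * a * (u * b * u') by group]
      at e' h5'
    generalize (u * b * u')⁻¹ * a * (u * b * u') = t' at e' h5' ⊢
    generalize u * b * u' * a * (u * b * u')⁻¹ = t at e h5 ⊢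
    have e3 : a = a * k * t * (b * k' * b⁻¹) * t' := by
      calc a = b * (b⁻¹ * a * b⁻¹⁻¹) * b⁻¹ := by group
        _ = b * a * b⁻¹ * (b * k' * b⁻¹) * (b * t' * b⁻¹) := by rw [e']; group
        _ = _ := by rw [e, (V.cm vb h5').eq, mul_inv_cancel_right]
    have hk2 : b * k' * b⁻¹ ∈ W.S [2, 3, 4] := by
      refine conj_mem_of_XS hk' fun r hr z hz => ?_
      simp only [Set.mem_ofPred_eq, List.mem_cons, List.not_mem_nil, or_false] at hr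
      rcases hr with rfl | rfl | rfl
      · rw [show b * z * b⁻¹ = ⁅z, b⁆⁻¹ * z by rw [commutatorElement_def]; group]
        exact mul_mem (inv_mem (mS (c26 h2 hz hb))) (mS hz)
      · rw [(V.cm vb hz).eq, mul_inv_cancel_right]; exact mS hz
      · rw [(V.cm vb hz).eq, mul_inv_cancel_right]; exact mS hz
    generalize b * k' * b⁻¹ = k2 at e3 hk2
    have e4 : t * t' = (k * (t * k2 * t⁻¹))⁻¹ := by
      rw [eq_inv_iff_mul_eq_one, ← (mul_left_cancel_iff (a := k * (t * k2 * t⁻¹)))]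
      have : k * (t * k2 * t⁻¹) * (t * t') = 1 := mul_left_cancel (a := a) (by rw [mul_one]; nth_rw 2 [e3]; group)
      rw [← mul_assoc, this, one_mul, mul_one]
    exact eq_inv_of_mul_eq_one_right (sep (l := [2, 3, 4]) (l' := [5])
      (e4 ▸ inv_mem (mul_mem hk (nrm h5 hk2))) (mS (mul_mem h5 h5')))
  have k := key _ (mul_mem hx hy)
  rw [show (u * b * u')⁻¹ * (x * y) * (u * b * u') =
    (u * b * u')⁻¹ * x * (u * b * u') * ((u * b * u')⁻¹ * y * (u * b * u')) by group, key x hx, key y hy] at k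
  have : y * x = x * y := by
    have := congrArg (fun g => (u * b * u')⁻¹ * g⁻¹ * (u * b * u')) k
    simpa [mul_assoc] using this
  exact this.symm

theorem long_of_V [Finite G] (h2 : ∃ v ∈ W.V 2, v ≠ 1) : W.Long := by
  refine ⟨fun i j hi hj x hx y hy => V.cm (U_le_V h2 hi hx) hy hj, fun i hi x hx y hy => ?_,
    fun i x hx y hy => ?_⟩
  · have e : ∀ i : ZMod 12, i.val % 2 = 0 → ∃ c, 2 * c + 6 - 2 = 2 + (i - 2) := by decide
    obtain ⟨v, hv, v1⟩ := V_all h2 _ (e i hi)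
    have := c26 (W := W.sh (i - 2)) (x := x) (a := y) ⟨v, V_sh.2 hv, v1⟩
      (by rwa [sh_U, show 2 + (i - 2) = i by ring]) (by rwa [sh_U, show 6 + (i - 2) = i + 4 by ring])
    rwa [sh_U, show 4 + (i - 2) = i + 2 by ring] at this
  · by_cases hi : i.val % 2 = 0
    · exact V.cm (U_le_V h2 hi hx) hy (by rw [sub_self]; decide)
    · have e : ∀ i : ZMod 12, i.val % 2 ≠ 0 → ∃ c, 2 * c + 6 - i = 1 := by decide
      obtain ⟨c, e1⟩ := e i hi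
      obtain ⟨n, hn⟩ := W.exists_act c
      simpa [mul_assoc] using (ab1 h2 (act hn hx 1 e1) (act hn hy 1 e1)).map (MulAut.conj n⁻¹)

theorem exists_long [Finite G] {p : ℕ} [Fact p.Prime] (hp : IsPGroup p (W.S [1, 2, 3, 4, 5, 6])) :
    ∃ c, (W.sh c).Long := by
  obtain ⟨i, v, hv, v1⟩ := exists_V hp
  exact ⟨i - 2, long_of_V ⟨v, V_sh.2 (by rwa [show 2 + (i - 2) = i by ring]), v1⟩⟩

end W6

open FS in
theorem exists_long {hn : Ok 6} {G : Type*} [Group G] [Finite G] {p : ℕ} [Fact p.Prime]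
    (E : RGD (Dih hn) G) (hF : E.Faith) (pg : ∀ r, IsPGroup p (E.X r)) :
    ∃ W : W6 G, W.Long ∧ ⨆ i, W.U i = E.Gp := by
  let W : W6 G := ⟨E.X, fun i j h1 h2 x hx y hy => ?_, fun i g h1 h2 => ?_, fun i => ?_, fun i x hx h => ?_⟩
  · obtain ⟨c, hc⟩ := W6.exists_long (W := W) (p := p) (by
      have e : W.S [1, 2, 3, 4, 5, 6] = E.U := by
        refine congrArg (XS E.X) (Set.ext fun r => ?_)
        change r ∈ ([1, 2, 3, 4, 5, 6] : List (ZMod 12)) ↔ 1 ≤ r.val ∧ r.val ≤ 6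
        revert r
        decide
      rw [e]
      exact E.isPGroup_U fun i => pg _)
    refine ⟨_, hc, ?_⟩
    rw [Pre.Gp, XS]
    simp only [Set.mem_univ, iSup_true]
    exact (Equiv.addRight c).iSup_comp (g := E.X)
  · have e : ∀ i j : ZMod (2 * 6), 0 < (j - i).val → (j - i).val < 6 → i ≠ j ∧ j ≠ i + (6 : ℕ) ∧
        ∀ r, Btw (n := 6) i j r ∨ Btw (n := 6) j i r → 0 < (r - i).val ∧ (r - i).val < (j - i).val := by decide
    obtain ⟨k1, k2, k3⟩ := e i j h1 h2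
    exact XS_mono k3 (E.comm_mem' k1 k2 hx hy)
  · have e : ∀ i : ZMod (2 * 6), ∃ j : Fin 6,
        (∀ r : ZMod (2 * 6), 1 ≤ (r + 2 * (j : ℕ)).val ∧ (r + 2 * (j : ℕ)).val ≤ 6 ↔ (r - i).val < 6) ∨
        ∀ r : ZMod (2 * 6), 1 ≤ ((6 : ℕ) - r + 2 * (j : ℕ)).val ∧ ((6 : ℕ) - r + 2 * (j : ℕ)).val ≤ 6 ↔
          (r - i).val < 6 := by decide
    obtain ⟨w, hw, k⟩ : ∃ w ∈ (Dih hn).W, ∀ r, (Dih hn).Pos (w r) ↔ (r - i).val < 6 := by
      obtain ⟨j, k | k⟩ := e i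
      · exact ⟨_, rot_mem hn j, fun r => by rw [rot_pow]; exact k r⟩
      · exact ⟨_, mul_mem (rot_mem hn j) ((Dih hn).σ_mem_W 1), fun r => by
          rw [Equiv.Perm.mul_apply, rot_pow, σ1]; exact k r⟩
    obtain ⟨n, hn'⟩ := E.exists_acts hw
    exact conj_eq_one_iff.1 (hF _ (hn'.conj_mem_XS (T := {r | (Dih hn).Pos r}) (fun r hr => (k r).2 hr) h1)
      (hn'.conj_mem_XS (T := {r | ¬ (Dih hn).Pos r}) (fun r hr l => absurd ((k r).1 l) (not_lt.2 hr)) h2))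
  · obtain ⟨w, hw, l, e⟩ := (Dih hn).exists_W_α i
    obtain ⟨g, hg⟩ := E.exists_acts hw
    obtain ⟨x, hx, h1⟩ := E.exists_ne_one l
    exact ⟨g * x * g⁻¹, e ▸ hg.conj_mem hx, by simpa using h1⟩
  · exact E.rgd2' hx h

end H80.FS6
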