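import Mathlib
import Cfsg.Agent.Lib.FS6.Dz
import Cfsg.Agent.Lib.FS6.Long

/-! Finite Moufang hexagons: the field of the long root groups. -/

set_option autoImplicit false
set_option linter.unusedSectionVars false
set_option linter.style.haveILetI false

open H63.St H73.FS6 H80.FS6.W6
open scoped commutatorElement

namespace H80.FS6

universe u

variable {G : Type u} [Group G] {A : W6 G} {a a' b b' y y' u u' h x : G}

/-- `y` is the `U 5` component of `b a b⁻¹` -/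
def Th (A : W6 G) (b a y : G) : Prop := y ∈ A.U 5 ∧ ∃ k ∈ A.S [2, 3, 4], b * a * b⁻¹ = a * k * y

theorem Th.ex (hb : b ∈ A.U 6) (ha : a ∈ A.U 1) : ∃ y, Th A b a y := by
  obtain ⟨k, hk, y, hy, e⟩ := dec' (cmS (inv_mem ha) hb [5, 2, 3, 4])
  exact ⟨y, hy, k, hk, by rw [mul_assoc a k, ← e, commutatorElement_def]; group⟩

theorem Th.uniq (h : Th A b a y) (h' : Th A b a y') : y = y' := by
  obtain ⟨hy, k, hk, e⟩ := h
  obtain ⟨hy', k', hk', e'⟩ := h'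
  have e2 : y * y'⁻¹ = k⁻¹ * k' := by
    rw [show k' = a⁻¹ * (a * k * y) * y'⁻¹ by rw [← e, e']; group]; group
  exact mul_inv_eq_one.1 (sep (l := [2, 3, 4]) (l' := [5]) (e2 ▸ mul_mem (inv_mem hk) hk')
    (mS (mul_mem hy (inv_mem hy'))))

theorem Th.mul (ha' : a' ∈ A.U 1) (h : Th A b a y) (h' : Th A b a' y') : Th A b (a * a') (y * y') := by
  obtain ⟨hy, k, hk, e⟩ := h
  obtain ⟨hy', k', hk', e'⟩ := h'
  refine ⟨mul_mem hy hy', _, mul_mem (mul_mem (nrm' ha' hk) (cmS (inv_mem ha') hy _)) (nrm hy hk'), ?_⟩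
  rw [show b * (a * a') * b⁻¹ = b * a * b⁻¹ * (b * a' * b⁻¹) by group, e, e', commutatorElement_def]
  group

theorem nK (L : A.Long) (hb : b ∈ A.U 6) {k : G} (hk : k ∈ A.S [2, 3, 4]) : b * k * b⁻¹ ∈ A.S [2, 3, 4] := by
  refine conj_mem_of_XS hk fun r hr z hz => ?_
  simp only [Set.mem_ofPred_eq, List.mem_cons, List.not_mem_nil, or_false] at hr
  rcases hr with rfl | rfl | rfl
  · rw [cj_eq' z b]
    exact mul_mem (inv_mem (mS (i := 4) (L.c4 2 rfl z hz b hb))) (mS hz)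
  · rw [lc L hb hz, mul_inv_cancel_right]; exact mS hz
  · rw [lc L hb hz, mul_inv_cancel_right]; exact mS hz

theorem Th.mul' (L : A.Long) (hb : b ∈ A.U 6) (h : Th A b a y) (h' : Th A b' a y') :
    Th A (b * b') a (y * y') := by
  obtain ⟨hy, k, hk, e⟩ := h
  obtain ⟨hy', k', hk', e'⟩ := h'
  refine ⟨mul_mem hy hy', _, mul_mem hk (nrm hy (nK L hb hk')), ?_⟩
  calc _ = b * (b' * a * b'⁻¹) * b⁻¹ := by group
    _ = b * a * b⁻¹ * (b * k' * b⁻¹) * (b * y' * b⁻¹) := by rw [e']; group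
    _ = _ := by rw [e, lc L hb hy', mul_inv_cancel_right]; group

theorem Th.one : Th A 1 a 1 := ⟨one_mem _, 1, one_mem _, by group⟩

theorem Th.tor (hh : Acts A.U h 1) (k : Th A b a y) :
    Th A (h * b * h⁻¹) (h * a * h⁻¹) (h * y * h⁻¹) := by
  obtain ⟨hy, k, hk, e⟩ := k
  refine ⟨hh.conj_mem hy, _, S_cj hh hk, ?_⟩
  calc _ = h * (b * a * b⁻¹) * h⁻¹ := by group
    _ = _ := by rw [e]; group

theorem toV (L : A.Long) {i : ZMod 12} (hx : x ∈ A.U i) (hi : i.val % 2 = 0 := by decide) : x ∈ A.V i :=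
  ⟨hx, fun j k y hy => L.cen i j hi k x hx y hy⟩

theorem Th.mu (L : A.Long) (m : Mu A 6 u b u') (ha : a ∈ A.U 1) :
    Th A b a (u * b * u' * a * (u * b * u')⁻¹) :=
  ⟨U_cj m.acts ha, th (U_eq m.l) (toV L (U_eq m.r)) m.acts m.m ha⟩

theorem Th.inj (L : A.Long) (hb : b ∈ A.U 6) (ha : a ∈ A.U 1) (h : Th A b a 1) : b = 1 ∨ a = 1 := by
  by_cases b1 : b = 1
  · exact .inl b1
  obtain ⟨u, u', m⟩ := exists_mu hb b1
  exact .inr (conj_eq_one_iff.1 ((Th.mu L m ha).uniq h))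

/-- the reflection in a long root acts on a long root group by commutation -/
theorem cm26 (L : A.Long) (m : Mu A 2 u a u') (hy : y ∈ A.U 6) :
    u * a * u' * y * (u * a * u')⁻¹ = ⁅a, y⁆ := by
  have h4 : u * a * u' * y * (u * a * u')⁻¹ ∈ A.U 4 := U_cj m.acts hy
  have hu : u ∈ A.U 8 := U_eq m.l
  have hz : ⁅a, y⁆ ∈ A.U 4 := L.c4 2 rfl a m.m y hy
  have hw : ⁅⁅a, y⁆⁻¹, u⁆ ∈ A.U 6 := L.c4 4 rfl _ (inv_mem hz) u hu
  have e : u * a * u' * y * (u * a * u')⁻¹ = ⁅a, y⁆ * (⁅⁅a, y⁆⁻¹, u⁆ * y) := by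
    rw [mul_assoc _ u', lc L (U_eq m.r : u' ∈ A.U 8) hy]
    calc _ = u * (a * y * a⁻¹) * u⁻¹ := by group
      _ = u * ⁅a, y⁆ * u⁻¹ * (u * y * u⁻¹) := by rw [cj_eq a y]; group
      _ = _ := by rw [lc L hu hy, mul_inv_cancel_right, commutatorElement_def _ u]; group
  have : ⁅⁅a, y⁆⁻¹, u⁆ * y = 1 := sep (l := [4]) (l' := [6])
    (mS (by rw [← mul_mem_cancel_left hz, ← e]; exact h4)) (mS (mul_mem hw hy))
  rw [e, this, mul_one]

theorem Long.sh (L : A.Long) {c : ZMod 12} (hc : c.val % 2 = 0 := by decide) : (A.sh c).Long := by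
  have e : ∀ i c : ZMod 12, i.val % 2 = 0 → c.val % 2 = 0 → (i + c).val % 2 = 0 := by decide
  refine ⟨fun i j hi hj x hx y hy => L.cen _ _ (e i c hi hc) (by rwa [add_sub_add_right_eq_sub]) x hx y hy,
    fun i hi x hx y hy => ?_, fun i => L.ab _⟩
  rw [sh_U, add_right_comm] at hy ⊢
  exact L.c4 _ (e i c hi hc) x hx y hy

theorem sj26 [Finite G] (L : A.Long) (hy : y ∈ A.U 6) (y1 : y ≠ 1) (hx : x ∈ A.U 4) (x1 : x ≠ 1) :
    ∃ u a u', Mu A 2 u a u' ∧ u * a * u' * y * (u * a * u')⁻¹ = x := by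
  let φ : A.U 2 → A.U 4 := fun a => ⟨⁅(a : G), y⁆, L.c4 2 rfl _ a.2 y hy⟩
  obtain ⟨m, hm⟩ := A.exists_act 6
  have hc : Nat.card (A.U 2) = Nat.card (A.U 4) := card_eq_of_conj (g := m) (hm 2)
  have bij : Function.Bijective φ := (Nat.bijective_iff_injective_and_card φ).2 ⟨fun a a' e => ?_, hc⟩
  · obtain ⟨a, ha⟩ := bij.2 ⟨x, hx⟩
    have ha' : ⁅(a : G), y⁆ = x := congrArg Subtype.val ha
    obtain ⟨u, u', m⟩ := exists_mu a.2 (fun e => x1 (by rw [← ha', e]; simp))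
    exact ⟨u, a, u', m, (cm26 L m hy).trans ha'⟩
  · have e' : ⁅(a : G), y⁆ = ⁅(a' : G), y⁆ := congrArg Subtype.val e
    by_contra n
    obtain ⟨u, u', m⟩ := exists_mu (mul_mem (inv_mem a'.2) a.2) fun e => n (Subtype.ext (inv_mul_eq_one.1 e).symm)
    have := cm26 L m hy
    rw [show ⁅(a' : G)⁻¹ * a, y⁆ = (a' : G)⁻¹ * (⁅(a : G), y⁆ * y) * a' * y⁻¹ by
      rw [commutatorElement_def, commutatorElement_def]; group, e', commutatorElement_def] at this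
    exact y1 (conj_eq_one_iff.1 (this.trans (by group)))

theorem mul_acts {c : ZMod 12} {m m' : G} (h : Acts A.U m (Equiv.subLeft c)) (h' : Acts A.U m' (Equiv.subLeft c)) :
    Acts A.U (m * m') 1 := by
  have := h.mul h'
  rwa [show Equiv.subLeft c * Equiv.subLeft c = 1 from Equiv.ext fun r => by simp] at this

theorem Mu.cm {i : ZMod 12} (m : Mu A i u a u') (h1 : ∀ z ∈ A.U i, Commute z x)
    (h2 : ∀ z ∈ A.U (i + 6), Commute z x) : Commute (u * a * u') x :=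
  ((h2 _ m.l).mul_left (h1 _ m.m)).mul_left (h2 _ m.r)

theorem tr5 [Finite G] (L : A.Long) (hb : b ∈ A.U 6) (b1 : b ≠ 1) (hb' : b' ∈ A.U 6) (b1' : b' ≠ 1) :
    ∃ h, Acts A.U h 1 ∧ (∀ y ∈ A.U 5, Commute h y) ∧ h * b * h⁻¹ = b' := by
  obtain ⟨a', ha', a1⟩ := A.ne 2
  obtain ⟨v, v', m'⟩ := exists_mu ha' a1
  obtain ⟨u, a, u', m, e⟩ := sj26 L hb b1 (U_cj m'.acts hb') (fun e => b1' (conj_eq_one_iff.1 e))
  refine ⟨(v * a' * v')⁻¹ * (u * a * u'), mul_acts (act_inv m'.acts) m.acts, fun y hy => ?_, ?_⟩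
  · exact (Mu.cm m' (fun z hz => lc L hz hy) fun z hz => lc L hz hy).inv_left.mul_left
      (Mu.cm m (fun z hz => lc L hz hy) fun z hz => lc L hz hy)
  · calc _ = (v * a' * v')⁻¹ * (u * a * u' * b * (u * a * u')⁻¹) * (v * a' * v') := by group
      _ = _ := by rw [e]; group

/-- First coordinates. -/
structure Cd (A : W6 G) (F J : Type*) [Field F] [AddCommGroup J] [Module F J] where
  /-- coordinates on `U 6` -/
  x6 : F → G
  /-- coordinates on `U 1` -/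
  x1 : J → G
  /-- the reflection in the root `6` -/
  wb : G
  p6 : Pa (A.U 6) x6
  p1 : Pa (A.U 1) x1
  mb : ∃ u u', Mu A 6 u (x6 1) u' ∧ wb = u * x6 1 * u'
  th : ∀ t a, Th A (x6 t) (x1 a) (wb * x1 (t • a) * wb⁻¹)

theorem exists_field (R : Type u) [Ring R] [Finite R] [IsDomain R] :
    ∃ (F : Type) (_ : Field F) (_ : Fintype F), Nonempty (F ≃+* R) := by
  letI := (Finite.isDomain_to_isField R).toField
  haveI : Finite (Shrink.{0} R) := Finite.of_equiv _ (equivShrink.{0} R)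
  exact ⟨Shrink.{0} R, inferInstance, Fintype.ofFinite _, ⟨Shrink.ringEquiv.{0} R⟩⟩

set_option maxHeartbeats 800000 in
theorem exists_cd [Finite G] (L : A.Long) : ∃ (F : Type) (_ : Field F) (_ : Fintype F) (J : Type u)
    (_ : AddCommGroup J) (_ : Module F J), Nonempty (Cd A F J) := by
  letI : CommGroup (A.U 1) := { (inferInstance : Group (A.U 1)) with
    mul_comm := fun x y => Subtype.ext (L.ab 1 x x.2 y y.2).eq }
  let J := Additive (A.U 1)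
  let x1 : J → G := fun a => (Additive.toMul a : A.U 1)
  have p1 : Pa (A.U 1) x1 := ⟨fun _ _ => rfl, fun g => ⟨fun h => ⟨Additive.ofMul ⟨g, h⟩, rfl⟩,
    by rintro ⟨a, rfl⟩; exact (Additive.toMul a).2⟩, fun a e => Subtype.ext e⟩
  obtain ⟨e, he, e1⟩ := A.ne 6
  obtain ⟨v, v', me⟩ := exists_mu he e1
  obtain ⟨wb, hwb⟩ : ∃ wb, wb = v * e * v' := ⟨_, rfl⟩
  have ab : Acts A.U wb (Equiv.subLeft 6) := hwb ▸ me.acts
  have p5 : Pa (A.U 5) fun a => wb * x1 a * wb⁻¹ := p1.conj (ab 1)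
  let P : G → AddMonoid.End J → Prop := fun b f => b ∈ A.U 6 ∧ ∀ a, Th A b (x1 a) (wb * x1 (f a) * wb⁻¹)
  have Pex : ∀ b ∈ A.U 6, ∃ f, P b f := fun b hb => by
    choose y hy using fun a => Th.ex hb (p1.m a)
    choose f hf using fun a => (p5.mem _).1 (hy a).1
    refine ⟨AddMonoidHom.mk' f fun a a' => p5.eq ?_, hb, fun a => ?_⟩
    · rw [p5.add, ← hf, ← hf, ← hf]
      exact (hy _).uniq (p1.add a a' ▸ (hy a).mul (p1.m a') (hy a'))
    · exact hf a ▸ hy a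
  have Padd : ∀ {b b' f f'}, P b f → P b' f' → P (b * b') (f + f') := fun h h' =>
    ⟨mul_mem h.1 h'.1, fun a => by
      have := (h.2 a).mul' L h.1 (h'.2 a)
      rwa [p5.mul] at this⟩
  have P0 : P 1 0 := ⟨one_mem _, fun a => by
    have := p5.zero
    change Th A 1 _ (wb * x1 0 * wb⁻¹)
    rw [this]; exact Th.one⟩
  have Pf : ∀ {b f f'}, P b f → P b f' → f = f' := fun h h' =>
    AddMonoidHom.ext fun a => p5.eq ((h.2 a).uniq (h'.2 a))
  have P1 : P e 1 := ⟨he, fun a => hwb ▸ Th.mu L me (p1.m a)⟩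
  have Pneg : ∀ {b f}, P b f → P b⁻¹ (-f) := fun {b f} h => by
    obtain ⟨f', h'⟩ := Pex _ (inv_mem h.1)
    have := Padd h h'
    rw [mul_inv_cancel] at this
    rwa [← eq_neg_of_add_eq_zero_right (Pf this P0)]
  have Pz : ∀ {b f a}, P b f → f a = 0 → b = 1 ∨ a = 0 := fun {b f a} h k =>
    (Th.inj L h.1 (p1.m a) (by have := h.2 a; rwa [k, p5.zero] at this)).imp_right (p1.inj a)
  obtain ⟨a0, a00⟩ : ∃ a : J, a ≠ 0 := by
    obtain ⟨x, hx, n⟩ := A.ne 1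
    obtain ⟨a, rfl⟩ := (p1.mem x).1 hx
    exact ⟨a, fun e => n (e ▸ p1.zero)⟩
  have Pb : ∀ {b b' f}, P b f → P b' f → b = b' := fun h h' => by
    have := Padd h (Pneg h')
    rw [add_neg_cancel] at this
    exact mul_inv_eq_one.1 ((Pz (a := a0) this rfl).resolve_right a00)
  have Pmul : ∀ {b s f g}, P b f → P s g → ∃ c, P c (f * g) := fun {b s f g} h k => by
    by_cases s1 : s = 1
    · exact ⟨1, by rw [Pf k (s1 ▸ P0), mul_zero]; exact P0⟩
    obtain ⟨t, ht, c5, et⟩ := tr5 L k.1 s1 he e1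
    have k1 : ∀ a, t * x1 a * t⁻¹ = x1 (g a) := fun a => by
      obtain ⟨a', ea⟩ := (p1.mem _).1 (ht.conj_mem (p1.m a))
      have := (k.2 a).tor ht
      rw [et, ea, (c5 _ (p5.m _)).eq, mul_inv_cancel_right] at this
      rw [ea, p5.eq (this.uniq (P1.2 a'))]
      rfl
    refine ⟨t⁻¹ * b * t⁻¹⁻¹, ht.inv.conj_mem h.1, fun a => ?_⟩
    have := (h.2 (g a)).tor ht.inv
    rw [← k1, (c5 _ (p5.m _)).inv_left.eq, mul_inv_cancel_right,
      show t⁻¹ * (t * x1 a * t⁻¹) * t⁻¹⁻¹ = x1 a by group] at this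
    exact this
  let R : Subring (AddMonoid.End J) :=
    { carrier := {f | ∃ b, P b f}
      mul_mem' := fun ⟨_, h⟩ ⟨_, k⟩ => Pmul h k
      one_mem' := ⟨_, P1⟩
      add_mem' := fun ⟨_, h⟩ ⟨_, k⟩ => ⟨_, Padd h k⟩
      zero_mem' := ⟨_, P0⟩
      neg_mem' := fun ⟨_, h⟩ => ⟨_, Pneg h⟩ }
  choose β hβ using fun f : R => f.2
  haveI : Finite R := Finite.of_injective β fun f g e => Subtype.ext (Pf (hβ f) (e ▸ hβ g))
  haveI : Nontrivial R := ⟨⟨0, 1, fun k => e1 (Pb P1 (by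
    rw [show (1 : AddMonoid.End J) = 0 from (congrArg Subtype.val k).symm]; exact P0))⟩⟩
  haveI : NoZeroDivisors R := ⟨fun {f g} k => by
    by_cases g0 : g.1 a0 = 0
    · exact .inr (Subtype.ext (Pf (hβ g) (((Pz (hβ g) g0).resolve_right a00).symm ▸ P0)))
    · have : f.1 (g.1 a0) = 0 := congrArg (fun r : R => r.1 a0) k
      exact .inl (Subtype.ext (Pf (hβ f) (((Pz (hβ f) this).resolve_right g0).symm ▸ P0)))⟩
  haveI : IsDomain R := NoZeroDivisors.to_isDomain R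
  obtain ⟨F, _, _, ⟨ψ⟩⟩ := exists_field R
  letI : Module F J := Module.compHom J (R.subtype.comp ψ.toRingHom)
  have b1 : β (ψ 1) = e := Pb (hβ _) (by rw [map_one]; exact P1)
  refine ⟨F, inferInstance, inferInstance, J, inferInstance, inferInstance,
    ⟨⟨fun t => β (ψ t), x1, wb, ⟨fun s t => Pb (hβ _) ?_, fun g => ⟨fun hg => ?_, ?_⟩, fun t k => ?_⟩, p1,
      ⟨v, v', b1.symm ▸ me, b1.symm ▸ hwb⟩, fun t a => (hβ _).2 a⟩⟩⟩
  · rw [ψ.map_add]; exact Padd (hβ _) (hβ _)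
  · obtain ⟨f, hf⟩ := Pex g hg
    exact ⟨ψ.symm ⟨f, g, hf⟩, Pb hf (by rw [RingEquiv.apply_symm_apply]; exact hβ ⟨f, g, hf⟩)⟩
  · rintro ⟨t, rfl⟩; exact (hβ _).1
  · exact (map_eq_zero_iff ψ ψ.injective).1 (Subtype.ext (Pf (hβ _) (k.symm ▸ P0)))

end H80.FS6
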