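import Mathlib
import Cfsg.Agent.Lib.FS6.SL
import Cfsg.Agent.Lib.FS6.Long
import Cfsg.Agent.Lib.FS6.FbA

/-! Finite Moufang hexagons: the field of the long roots.  See `blueprint/FS6/README.md`. -/

set_option autoImplicit false
set_option linter.unusedSectionVars false

open Matrix H24 H63.St H73.FW H80.FS6 H80.FS6.W6
open H52.FW (M2 wS dS Act)
open scoped MatrixGroups commutatorElement

namespace H80.FS6.Cd

open H73.FS6

variable {G : Type*} [Group G] {A : W6 G} {F J : Type*} [Field F] [AddCommGroup J] [Module F J]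
  (C : Cd A F J) (L : A.Long) {t s : F} {u u' h : G}

theorem ab : Acts A.U C.wb (Equiv.subLeft 6) := by
  obtain ⟨u, u', m, e⟩ := C.mb
  exact e ▸ m.acts

/-- coordinates on `U 5` -/
def x5 (a : J) : G := C.wb * C.x1 a * C.wb⁻¹

/-- coordinates on `U 0` -/
def x0 (t : F) : G := C.wb * C.x6 (-t) * C.wb⁻¹

theorem p5 : Pa (A.U 5) C.x5 := C.p1.conj (C.ab 1)

theorem p0 : Pa (A.U 0) C.x0 := by
  have p := C.p6.conj (Y' := A.U 0) (C.ab 6)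
  exact ⟨fun a b => by rw [x0, neg_add, p.add]; rfl, fun g => (p.mem g).trans
    ⟨fun ⟨a, e⟩ => ⟨-a, by rw [x0, neg_neg, e]⟩, fun ⟨a, e⟩ => ⟨-a, e⟩⟩,
    fun a e => neg_eq_zero.1 (p.inj _ e)⟩

include C in
theorem exJ : ∃ a : J, a ≠ 0 := by
  obtain ⟨x, hx, n⟩ := A.ne 1
  obtain ⟨a, rfl⟩ := (C.p1.mem x).1 hx
  exact ⟨a, fun e => n (e ▸ C.p1.zero)⟩

include C in
theorem sc (e : ∀ a : J, s • a = t • a) : s = t := by
  obtain ⟨a, h⟩ := C.exJ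
  exact smul_left_injective F h (e a)

include L

theorem m1 (m : Mu A 6 u (C.x6 t) u') (a : J) :
    u * C.x6 t * u' * C.x1 a * (u * C.x6 t * u')⁻¹ = C.x5 (t • a) :=
  (Th.mu L m (C.p1.m a)).uniq (C.th t a)

theorem t_ne (m : Mu A 6 u (C.x6 t) u') : t ≠ 0 := fun e => m.ne (e ▸ C.p6.zero)

theorem m5 (m : Mu A 6 u (C.x6 t) u') (y : J) :
    u * C.x6 t * u' * C.x5 y * (u * C.x6 t * u')⁻¹ = C.x1 (-t⁻¹ • y) := by
  have m' := m.inv
  rw [C.p6.neg] at m'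
  have := C.m1 L m' (-t⁻¹ • y)
  rw [smul_smul, neg_mul_neg, mul_inv_cancel₀ (C.t_ne L m), one_smul, ← C.p6.neg] at this
  rw [← this]; group

theorem w5 (y : J) : C.wb * C.x5 y * C.wb⁻¹ = C.x1 (-y) := by
  obtain ⟨u, u', m, e⟩ := C.mb
  have := C.m5 L m y
  rwa [← e, inv_one, neg_smul, one_smul] at this

theorem mu_l (m : Mu A 6 u (C.x6 t) u') : u = C.x0 (-t⁻¹) := by
  obtain ⟨r, rfl⟩ := (C.p0.mem u).1 (U_eq m.l)
  have wK : ∀ k ∈ A.S [2, 3, 4], C.wb * k * C.wb⁻¹ ∈ A.S [2, 3, 4] := fun k hk => actS C.ab hk _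
  have key : ∀ a : J, (r * t) • a = (-1 : F) • a := fun a => by
    have e := C.m1 L m a
    obtain ⟨-, k, hk, e1⟩ := C.th t a
    obtain ⟨-, k', hk', e2⟩ := C.th (-r) (t • a)
    have k1 : C.x0 r * k * (C.x0 r)⁻¹ ∈ A.S [2, 3, 4] := by
      have := wK _ (nK L (C.p6.m (-r)) (actS (act_inv C.ab) hk [2, 3, 4]))
      convert this using 1
      rw [x0]; group
    have e3 : C.x0 r * C.x5 (t • a) * (C.x0 r)⁻¹ =
        C.x5 (t • a) * (C.wb * k' * C.wb⁻¹) * C.x1 (-((-r) • t • a)) := by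
      rw [← C.w5 L]
      calc _ = C.wb * (C.x6 (-r) * C.x1 (t • a) * (C.x6 (-r))⁻¹) * C.wb⁻¹ := by rw [x0, x5]; group
        _ = _ := by rw [e2, x5, x5]; group
    have e4 : C.x5 (t • a) = C.x1 a * (C.x0 r * k * (C.x0 r)⁻¹) *
        (C.x5 (t • a) * (C.wb * k' * C.wb⁻¹) * C.x1 (-((-r) • t • a))) := by
      rw [← e3]
      calc _ = C.x0 r * (C.x6 t * C.x1 a * (C.x6 t)⁻¹) * (C.x0 r)⁻¹ := by
            rw [← e, mul_assoc _ u', lc L (U_eq m.r : u' ∈ A.U 0) (C.p1.m a)]; group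
        _ = C.x0 r * C.x1 a * k * C.x5 (t • a) * (C.x0 r)⁻¹ := by rw [e1, x5]; group
        _ = _ := by rw [lc L (C.p0.m r) (C.p1.m a)]; group
    have k2 := wK _ hk'
    have h5 := C.p5.m (t • a)
    have h1 := C.p1.m (-((-r) • t • a))
    generalize C.x0 r * k * (C.x0 r)⁻¹ = q1 at k1 e4
    generalize C.wb * k' * C.wb⁻¹ = q2 at k2 e4
    generalize C.x5 (t • a) = y at h5 e4
    have e5 : C.x1 (-((-r) • t • a)) * C.x1 a =
        ⁅C.x1 (-((-r) • t • a)), y⁆ * (q1 * (y * q2 * y⁻¹))⁻¹ := by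
      rw [show q1 = (C.x1 a)⁻¹ * y * (y * q2 * C.x1 (-((-r) • t • a)))⁻¹ by
        rw [eq_mul_inv_iff_mul_eq, eq_inv_mul_iff_mul_eq, ← mul_assoc, ← e4], commutatorElement_def]
      group
    have := sep (l := [1]) (l' := [2, 3, 4]) (mS (mul_mem h1 (C.p1.m a)))
      (e5 ▸ mul_mem (cmS h1 h5 _) (inv_mem (mul_mem k1 (nrm h5 k2))))
    rw [C.p1.mul, neg_smul, neg_neg, smul_smul] at this
    rw [neg_smul, one_smul, eq_neg_iff_add_eq_zero, C.p1.inj _ this]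
  rw [show r = -t⁻¹ by
    have := C.sc key
    have h0 := C.t_ne L m
    field_simp
    linear_combination this]

theorem mu (ht : t ≠ 0) : Mu A 6 (C.x0 (-t⁻¹)) (C.x6 t) (C.x0 (-t⁻¹)) := by
  obtain ⟨u, u', m⟩ := exists_mu (C.p6.m t) (C.p6.ne ht)
  have m' := m.inv
  rw [C.p6.neg] at m'
  have := C.mu_l L m'
  rw [inv_neg, neg_neg, inv_eq_iff_eq_inv, C.p0.neg] at this
  rwa [C.mu_l L m, this] at m

theorem wb_eq : C.x0 (-1) * C.x6 1 * C.x0 (-1) = C.wb := by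
  obtain ⟨u, u', m, e⟩ := C.mb
  have m' := C.mu L (one_ne_zero (α := F))
  rw [inv_one] at m'
  rw [e, m.uniq_l m', m.uniq_r m']

omit L in
theorem t6 (hh : Acts A.U h 1) (s : F) : ∃ s', h * C.x6 s * h⁻¹ = C.x6 s' ∧ ∀ a a',
    h * C.x1 a * h⁻¹ = C.x1 a' → h * C.x5 (s • a) * h⁻¹ = C.x5 (s' • a') := by
  obtain ⟨s', e⟩ := (C.p6.mem _).1 (hh.conj_mem (C.p6.m s))
  refine ⟨s', e, fun a a' k => ?_⟩
  have := (C.th s a).tor hh
  rw [e, k] at this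
  exact this.uniq (C.th s' a')

omit L in
theorem t6' (hh : Acts A.U h 1) {α γ : F} (h0 : α ≠ 0) (h1 : ∀ a, h * C.x1 a * h⁻¹ = C.x1 (α • a))
    (h5 : ∀ a, h * C.x5 a * h⁻¹ = C.x5 (γ • a)) (s : F) : h * C.x6 s * h⁻¹ = C.x6 (γ * α⁻¹ * s) := by
  obtain ⟨s', e, k⟩ := C.t6 hh s
  have : γ * s = s' * α := C.sc fun a => by
    have := k a _ (h1 a)
    rw [h5, smul_smul, smul_smul] at this
    exact C.p5.eq this
  rw [e, show s' = γ * α⁻¹ * s by field_simp; linear_combination -this]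

theorem m6 (m : Mu A 6 u (C.x6 t) u') (s : F) :
    u * C.x6 t * u' * C.x6 s * (u * C.x6 t * u')⁻¹ = C.x0 (-(t⁻¹ ^ 2 * s)) := by
  have := C.t6' (h := C.wb⁻¹ * (u * C.x6 t * u')) (mul_acts (act_inv C.ab) m.acts) (C.t_ne L m)
    (γ := t⁻¹) (fun a => by
      calc _ = C.wb⁻¹ * (u * C.x6 t * u' * C.x1 a * (u * C.x6 t * u')⁻¹) * C.wb := by group
        _ = _ := by rw [C.m1 L m, x5]; group) (fun a => by
      calc _ = C.wb⁻¹ * (u * C.x6 t * u' * C.x5 a * (u * C.x6 t * u')⁻¹) * C.wb := by group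
        _ = _ := by rw [C.m5 L m, neg_smul, ← C.w5 L]; group) s
  rw [x0, neg_neg, sq, ← this]; group

theorem m0 (m : Mu A 6 u (C.x6 t) u') (s : F) :
    u * C.x6 t * u' * C.x0 s * (u * C.x6 t * u')⁻¹ = C.x6 (-(t ^ 2 * s)) := by
  have h0 := C.t_ne L m
  have m' := m.inv
  rw [C.p6.neg] at m'
  have := C.m6 L m' (-(t ^ 2 * s))
  rw [show -((-t)⁻¹ ^ 2 * -(t ^ 2 * s)) = s by field_simp, ← C.p6.neg] at this
  rw [← this]; group

omit L in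
/-- a torus element centralizing `U 5` acts on `U 6` as a scalar -/
theorem sc5 (hh : Acts A.U h 1) (h5 : ∀ y ∈ A.U 5, Commute h y) :
    ∃ κ, ∀ s, h * C.x6 s * h⁻¹ = C.x6 (κ * s) := by
  obtain ⟨r, e, k⟩ := C.t6 hh.inv 1
  have c : ∀ a, h * C.x5 a * h⁻¹ = C.x5 a := fun a => by rw [(h5 _ (C.p5.m a)).eq, mul_inv_cancel_right]
  have r0 : r ≠ 0 := fun e0 => one_ne_zero (C.p6.inj _ (conj_eq_one_iff.1 (e.trans (e0 ▸ C.p6.zero))))
  refine ⟨_, C.t6' hh r0 (γ := 1) (fun a => ?_) fun a => by rw [c, one_smul]⟩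
  obtain ⟨a', ea⟩ := (C.p1.mem _).1 (hh.conj_mem (C.p1.m a))
  have := k a' a (by rw [← ea]; group)
  rw [(h5 _ (C.p5.m _)).inv_left.eq, mul_inv_cancel_right, one_smul] at this
  rw [ea, C.p5.eq this]

omit L in
/-- a torus element centralizing `U 1` acts on `U 6` as a scalar -/
theorem sc1 (hh : Acts A.U h 1) (h1 : ∀ y ∈ A.U 1, Commute h y) (e : h * C.x6 1 * h⁻¹ = C.x6 t) (s : F) :
    h * C.x6 s * h⁻¹ = C.x6 (t * s) := by
  have c : ∀ a, h * C.x1 a * h⁻¹ = C.x1 a := fun a => by rw [(h1 _ (C.p1.m a)).eq, mul_inv_cancel_right]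
  obtain ⟨r, e', k⟩ := C.t6 hh 1
  rw [e] at e'
  have := C.t6' hh one_ne_zero (γ := t) (fun a => by rw [c, one_smul]) (fun a => by
    have := k a a (c a)
    rwa [one_smul, ← C.p6.eq e'] at this) s
  rwa [inv_one, mul_one] at this

theorem tr1 [Finite G] (hs : s ≠ 0) : ∃ h, Acts A.U h 1 ∧ (∀ y ∈ A.U 1, Commute h y) ∧
    (∀ y ∈ A.U 7, Commute h y) ∧ h * C.x6 1 * h⁻¹ = C.x6 s := by
  obtain ⟨c', hc', c1⟩ := A.ne 4
  obtain ⟨v, v', m'⟩ := exists_mu hc' c1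
  have hy : (v * c' * v')⁻¹ * C.x6 1 * (v * c' * v')⁻¹⁻¹ ∈ A.U 8 := act (act_inv m'.acts) (C.p6.m 1) 8
  obtain ⟨u, c, u', m, e⟩ := sj26 (Long.sh L (c := 2)) (toSh hy 2 6)
    (fun e => C.p6.ne one_ne_zero (conj_eq_one_iff.1 e)) (toSh (C.p6.m s) 2 4) (C.p6.ne hs)
  have hu : u ∈ A.U 10 := ofSh m.l 10
  have hu' : u' ∈ A.U 10 := ofSh m.r 10
  have hc : c ∈ A.U 4 := ofSh m.m 4
  have ac : Acts A.U (u * c * u') (Equiv.subLeft (2 * 4 + 6)) := fun r x => by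
    have := m.acts (r - 2) x
    simp only [sh_U, Equiv.subLeft_apply, sub_add_cancel] at this ⊢
    rwa [show 2 * 2 + 6 - (r - 2) + 2 = 2 * 4 + 6 - r by
      have : (2 : ZMod 12) * 2 + 6 + 2 + 2 = 2 * 4 + 6 := by decide
      linear_combination this] at this
  have m4 : Mu A 4 u c u' := ⟨hu, hc, hu', m.ne, ac⟩
  refine ⟨u * c * u' * (v * c' * v')⁻¹, mul_acts ac (act_inv m'.acts), fun y hy => ?_, fun y hy => ?_, ?_⟩
  · exact (Mu.cm m4 (fun z hz => lc L hz hy) fun z hz => lc L hz hy).mul_left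
      (Mu.cm m' (fun z hz => lc L hz hy) fun z hz => lc L hz hy).inv_left
  · exact (Mu.cm m4 (fun z hz => lc L hz hy) fun z hz => lc L hz hy).mul_left
      (Mu.cm m' (fun z hz => lc L hz hy) fun z hz => lc L hz hy).inv_left
  · rw [← e]; group

theorem cm62 {b x : G} (m : Mu A 6 u b u') (hx : x ∈ A.U 2) :
    u * b * u' * x * (u * b * u')⁻¹ = ⁅b, x⁆ := by
  obtain ⟨e, w, hw, e'⟩ := b1 (toV L hx) m.m (U_eq m.l) (U_eq m.r) m.acts
  have h4 : u * b * u' * x * (u * b * u')⁻¹ ∈ A.U 4 := U_cj m.acts hx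
  rw [b2 (toV L hx) (toV L m.m) hw h4 e', mul_one, lc L hx h4] at e'
  rw [commutatorElement_def, e', mul_inv_cancel_right]

theorem o62 [Finite G] {v x v' wa : G} (ma : Mu A 1 v x v') (hw : wa = v * x * v') (t s : F) :
    ⁅C.x6 t, wa * C.x6 s * wa⁻¹⁆ = C.wb * (wa * C.x6 (t * s) * wa⁻¹) * C.wb⁻¹ := by
  have aa : Acts A.U wa (Equiv.subLeft 8) := hw ▸ ma.acts
  have cw : ∀ g, (∀ y ∈ A.U 1, Commute g y) → (∀ y ∈ A.U 7, Commute g y) → Commute g wa := fun g h1 h7 =>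
    hw ▸ (Mu.cm ma (fun z hz => (h1 z hz).symm) fun z hz => (h7 z hz).symm).symm
  obtain ⟨c, hc⟩ : ∃ c, ∀ s, wa⁻¹ * wa⁻¹ * C.x6 s * (wa⁻¹ * wa⁻¹)⁻¹ = C.x6 (s * c) := by
    obtain ⟨c, e, -⟩ := C.t6 (mul_acts (act_inv aa) (act_inv aa)) 1
    refine ⟨c, fun s => ?_⟩
    by_cases hs : s = 0
    · rw [hs, zero_mul, C.p6.zero]; group
    obtain ⟨h, hh, h1, h7, eh⟩ := C.tr1 L hs
    have k := ((cw h h1 h7).inv_right.mul_right (cw h h1 h7).inv_right).eq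
    rw [← C.sc1 hh h1 eh c, ← e, ← eh]
    calc _ = (wa⁻¹ * wa⁻¹ * h) * C.x6 1 * (wa⁻¹ * wa⁻¹ * h)⁻¹ := by group
      _ = _ := by rw [← k]; group
  obtain ⟨u, u', mb, eb⟩ := C.mb
  have k1 : ∀ t, ⁅C.x6 t, wa * C.x6 1 * wa⁻¹⁆ = C.wb * (wa * C.x6 (-t * c) * wa⁻¹) * C.wb⁻¹ := fun t => by
    have m2 : Mu A 2 _ _ _ := mb.cj aa
    have e := cm26 L m2 (C.p6.m t)
    have h4 : C.wb * (wa⁻¹ * C.x6 t * wa⁻¹⁻¹) * C.wb⁻¹ ∈ A.U 4 :=
      act C.ab (act (act_inv aa) (C.p6.m t) 2) 4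
    have c4 := cw _ (fun y hy => lc L h4 hy) fun y hy => lc L h4 hy
    rw [← commutatorElement_inv, ← e, ← hc, ← C.p6.neg]
    calc _ = (wa * (u * C.x6 1 * u' * (wa⁻¹ * C.x6 t * wa⁻¹⁻¹) * (u * C.x6 1 * u')⁻¹) * wa⁻¹)⁻¹ := by group
      _ = _ := by rw [← eb, ← c4.eq]; group
  have p2 := C.p6.conj (Y' := A.U 2) (aa 6)
  have p4 := p2.conj (Y' := A.U 4) (C.ab 2)
  have c1 : -1 * c = 1 := by
    have := cm62 L mb (p2.m 1)
    rw [k1, ← eb] at this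
    exact (p4.eq this).symm
  by_cases ht : t = 0
  · rw [ht, zero_mul, C.p6.zero]; simp
  have m := C.mu L ht
  generalize C.x0 (-t⁻¹) = r at m
  obtain ⟨κ, hκ⟩ := C.sc5 (h := wa⁻¹ * (C.wb⁻¹ * (r * C.x6 t * r)) * wa⁻¹⁻¹)
    ((act_inv aa).conj_torus (mul_acts (act_inv C.ab) m.acts)) (fun y hy => by
      have h3 := act aa hy 3
      have := ((eb ▸ Mu.cm mb (fun z hz => lc L hz h3) fun z hz => lc L hz h3 :
        Commute C.wb _).inv_left.mul_left (Mu.cm m (fun z hz => lc L hz h3) fun z hz => lc L hz h3)).map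
        (MulAut.conj wa⁻¹)
      simpa [mul_assoc] using this)
  have k2 : ∀ s, ⁅C.x6 t, wa * C.x6 s * wa⁻¹⁆ = C.wb * (wa * C.x6 (κ * s) * wa⁻¹) * C.wb⁻¹ := fun s => by
    rw [← cm62 L m (p2.m s), ← hκ]; group
  have := p4.eq ((k2 1).symm.trans (k1 t))
  rw [k2, show κ = t by linear_combination this + t * c1]

end H80.FS6.Cd

namespace H73.FS6

theorem exists_hb {G : Type*} [Group G] [Finite G] {A : W6 G} (L : A.Long) :
    ∃ (F : Type) (_ : Field F) (_ : Fintype F), Nonempty (Hb A F) := by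
  obtain ⟨F, _, _, J, _, _, ⟨C⟩⟩ := exists_cd L
  obtain ⟨x, hx, x1⟩ := A.ne 1
  obtain ⟨v, v', ma⟩ := exists_mu hx x1
  obtain ⟨f, f1, f2, f3, f4, f5⟩ := exists_sl (x := C.x6) (y := C.x0) (w := C.wb) C.p6.add (fun _ => rfl)
    (C.wb_eq L) (fun t ht => C.m6 L (C.mu L ht)) fun t ht => C.m0 L (C.mu L ht)
  refine ⟨F, _, ‹_›, ⟨⟨⟨C.x6, v * x * v', C.wb, C.p6, ⟨v, x, v', ma, rfl⟩, C.mb, fun t s => ?_⟩, f, ?_, f1,
    fun g => ?_, f3, fun t ht => ?_⟩⟩⟩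
  · rw [← C.o62 L ma rfl, commutatorElement_def]; group
  · refine sl_inj (A := A) (i := 6) (fun t => f1 t ▸ C.p6.m t) (fun t => f2 t ▸ C.p0.m t)
      (fun t e => C.p0.inj t (f2 t ▸ e)) (or_iff_not_imp_left.2 fun h2 e => h2 ?_)
    have := C.sc (s := 1) (t := -1) fun a => C.p1.eq (by
      rw [neg_smul, one_smul, ← C.w5 L, Cd.x5]
      calc _ = C.wb * C.wb * C.x1 a * (C.wb * C.wb)⁻¹ := by rw [← f4, e]; group
        _ = _ := by group)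
    linear_combination this
  · simp only [f2]; exact C.p0.mem g
  · rw [f5]; exact mul_acts (C.mu L ht).acts (act_inv C.ab)

end H73.FS6
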