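import Mathlib
import Cfsg.Agent.Lib.FS6.Cal

/-! Finite Moufang hexagons: the structure functions are polynomial.  See `blueprint/FS6/README.md`. -/

set_option autoImplicit false
set_option linter.unusedSectionVars false

open Matrix H24 H63.St H73.FW H80.FS6 H80.FS6.W6
open H52.FW (M2 wS dS Act)
open scoped MatrixGroups commutatorElement

namespace H73.FS6

namespace Hy

variable {G : Type*} [Group G] {A : W6 G} {F J : Type*} [Field F] [AddCommGroup J] [Module F J] (Y : Hy A F J)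

theorem lo_mem (t : F) : Y.fb (loT t) ∈ A.U 0 := (Y.X0 _).2 ⟨_, rfl⟩

theorem mb_eq {t : F} (ht : t ≠ 0) : Y.fb (loT (-t⁻¹)) * Y.x6 t * Y.fb (loT (-t⁻¹)) = Y.fb (dS t ht) * Y.wb := by
  rw [← Y.up, ← map_mul, ← map_mul, NF.mu_eq ht, map_mul, Y.w]

theorem cen3 (m : SL(2, F)) {x : G} (hx : x ∈ A.U 3) : Y.fb m * x * (Y.fb m)⁻¹ = x := by
  rw [NF.all_cen (Y := A.U 3) (fun a y hy => Y.up a ▸ lc Y.lng (Y.p6.m a) hy)
    (fun y hy => Y.w ▸ Y.ab.inv_conj_mem hy) m _ hx, mul_inv_cancel_right]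

section hd
variable {t : F} (ht : t ≠ 0)

theorem hw : Y.fb (dS t ht) * Y.wb = Y.wb * (Y.fb (dS t ht))⁻¹ := by
  rw [← Y.w, ← map_mul, NF.d_w, map_mul, map_inv]

theorem h6 (u : F) : Y.fb (dS t ht) * Y.x6 u * (Y.fb (dS t ht))⁻¹ = Y.x6 (t ^ 2 * u) := by
  rw [← Y.up, ← Y.up]; exact NF.act_up (NF.act_d Y.fb ht) u

theorem h5 (y : J) : Y.fb (dS t ht) * Y.x5 y * (Y.fb (dS t ht))⁻¹ = Y.x5 (t • y) := by
  have := Y.sm t ht (t • y)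
  rw [inv_smul_smul₀ ht] at this
  rw [x5, x5, ← this]
  calc _ = Y.fb (dS t ht) * Y.wb * (Y.fb (dS t ht) * Y.x1 (t • y) * (Y.fb (dS t ht))⁻¹) *
        (Y.fb (dS t ht) * Y.wb)⁻¹ := by group
    _ = _ := by rw [Y.hw ht]; group

theorem h4 (s : F) : Y.fb (dS t ht) * Y.x4 s * (Y.fb (dS t ht))⁻¹ = Y.x4 (t * s) := by
  have hv := Y.lo_mem (-t⁻¹)
  have e := Y.mb_eq ht
  generalize Y.fb (loT (-t⁻¹)) = v at hv e
  have hy : Y.fb (dS t ht) * Y.x4 s * (Y.fb (dS t ht))⁻¹ ∈ A.U 4 := U_cj (Y.tb t ht) (Y.p4.m s)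
  have h1 : Y.x6 t * Y.x2 s * (Y.x6 t)⁻¹ = v⁻¹ * (Y.fb (dS t ht) * Y.x4 s * (Y.fb (dS t ht))⁻¹) * v⁻¹⁻¹ := by
    rw [x4]
    calc _ = v⁻¹ * (v * Y.x6 t * (Y.x2 s * v) * (v * Y.x6 t * v)⁻¹) * v := by group
      _ = v⁻¹ * (v * Y.x6 t * v * Y.x2 s * (v * Y.x6 t * v)⁻¹) * v := by rw [← lc Y.lng hv (Y.p2.m s)]; group
      _ = _ := by rw [e]; group
  generalize Y.fb (dS t ht) * Y.x4 s * (Y.fb (dS t ht))⁻¹ = y at hy h1
  have h2 : ⁅v⁻¹, y⁆ ∈ A.U 2 := Y.lng.c4 0 (by decide) _ (inv_mem hv) _ hy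
  rw [o62_spec, cj_eq, ← mul_assoc, mul_inv_cancel_right, lc Y.lng (Y.p4.m _) (Y.p2.m _)] at h1
  have h3 : Y.x4 (t * s) * y⁻¹ = (Y.x2 s)⁻¹ * ⁅v⁻¹, y⁆ := by
    rw [mul_inv_eq_iff_eq_mul, mul_assoc, ← h1]; group
  exact (mul_inv_eq_one.1 (sep (l := [4]) (l' := [2, 10]) (mS (mul_mem (Y.p4.m _) (inv_mem hy)))
    (h3 ▸ mS (mul_mem (inv_mem (Y.p2.m _)) h2)))).symm

theorem h2 (s : F) : Y.fb (dS t ht) * Y.x2 s * (Y.fb (dS t ht))⁻¹ = Y.x2 (t⁻¹ * s) := by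
  have := Y.h4 ht (t⁻¹ * s)
  rw [mul_inv_cancel_left₀ ht, x4, x4] at this
  have h := Y.hw ht
  calc _ = Y.fb (dS t ht) * (Y.wb⁻¹ * (Y.wb * Y.x2 s * Y.wb⁻¹) * Y.wb) * (Y.fb (dS t ht))⁻¹ := by group
    _ = Y.fb (dS t ht) * (Y.wb⁻¹ * (Y.fb (dS t ht) * Y.wb) * Y.x2 (t⁻¹ * s) * (Y.fb (dS t ht) * Y.wb)⁻¹ * Y.wb) *
        (Y.fb (dS t ht))⁻¹ := by rw [← this]; group
    _ = _ := by rw [h]; group

end hd

theorem d5_eq (a : J) (t : F) : Y.d5 a t = -(t • a) := by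
  by_cases ht : t = 0
  · rw [ht, (Y.zero6 a).2.2.1, zero_smul, neg_zero]
  have hv := Y.lo_mem (-t⁻¹)
  have e := Y.mb_eq ht
  generalize Y.fb (loT (-t⁻¹)) = v at hv e
  have h3 : Y.x6 t * Y.x1 (-a) * (Y.x6 t)⁻¹ = ⁅v⁻¹, Y.x5 (t • -a)⁆ * Y.x5 (t • -a) := by
    rw [← cj_eq, ← Y.h5 ht, x5]
    calc _ = v⁻¹ * (v * Y.x6 t * (Y.x1 (-a) * v) * (v * Y.x6 t * v)⁻¹) * v := by group
      _ = v⁻¹ * (v * Y.x6 t * v * Y.x1 (-a) * (v * Y.x6 t * v)⁻¹) * v := by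
        rw [← (c1 hv (Y.p1.m (-a))).eq]; group
      _ = _ := by rw [e]; group
  have h4 := cmS (inv_mem hv) (Y.p5.m (t • -a)) [1, 2, 3, 4]
  have h5 := Y.u6 a t
  rw [Φ] at h5
  have h6 : Y.x5 (Y.d5 a t) * (Y.x5 (t • -a))⁻¹ = (Y.x1 (-a) * (Y.x4 (Y.d4 a t) * (Y.x2 (Y.d2 a t) *
      Y.x3 (Y.d3 a t))))⁻¹ * ⁅v⁻¹, Y.x5 (t • -a)⁆ := by
    rw [mul_inv_eq_iff_eq_mul, mul_assoc, ← h3, ← Y.p1.neg]
    calc _ = (Y.x4 (Y.d4 a t) * (Y.x2 (Y.d2 a t) * Y.x3 (Y.d3 a t)))⁻¹ * (Y.x4 (Y.d4 a t) *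
          (Y.x2 (Y.d2 a t) * (Y.x3 (Y.d3 a t) * (Y.x5 (Y.d5 a t) * Y.x6 t)))) * (Y.x6 t)⁻¹ := by group
      _ = _ := by rw [← h5]; group
  rw [← smul_neg]
  refine Y.p5.eq (mul_inv_eq_one.1 (sep (l := [5]) (l' := [1, 2, 3, 4])
    (mS (mul_mem (Y.p5.m _) (inv_mem (Y.p5.m _)))) ?_))
  rw [h6]
  exact mul_mem (inv_mem (mul_mem (mS (Y.p1.m _)) (mul_mem (mS (Y.p4.m _)) (mul_mem (mS (Y.p2.m _))
    (mS (Y.p3.m _)))))) h4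

/-- a torus element is determined by its action on `U 5` and `U 6` -/
theorem tor1 {h : G} (hh : Acts A.U h 1) {τ : F} (h0 : τ ≠ 0) (e6 : h * Y.x6 1 * h⁻¹ = Y.x6 τ) {a y : J}
    (e5 : h * Y.x5 a * h⁻¹ = Y.x5 y) : h * Y.x1 a * h⁻¹ = Y.x1 (τ⁻¹ • y) := by
  obtain ⟨b, e1⟩ := (Y.p1.mem _).1 (hh.conj_mem (Y.p1.m a))
  obtain ⟨s, e2⟩ := (Y.p2.mem _).1 (hh.conj_mem (Y.p2.m (Y.d2 a 1)))
  obtain ⟨z, e3⟩ := (Y.p3.mem _).1 (hh.conj_mem (Y.p3.m (Y.d3 a 1)))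
  have e5' : h * Y.x5 (Y.d5 a 1) * h⁻¹ = Y.x5 (-y) := by
    rw [d5_eq, one_smul, ← Y.p5.neg, ← Y.p5.neg, ← e5]; group
  have := (((Y.c6 a 1).tor hh e2 e3 e5' e6).uniq (Y.c6 b τ) (by rw [← e1, ← e6]; group)).2.2.1
  rw [d5_eq, neg_inj] at this
  rw [e1, this, inv_smul_smul₀ h0]

section mu
variable {Y} {u x u' : G} (m : Mu A 1 u x u')
include m

theorem cen4 (f : F) : u * x * u' * Y.x4 f * (u * x * u')⁻¹ = Y.x4 f := by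
  rw [mul_assoc _ u', lc Y.lng m.r (Y.p4.m f), ← mul_assoc, mul_assoc u, lc Y.lng m.m (Y.p4.m f), ← mul_assoc,
    lc Y.lng m.l (Y.p4.m f)]
  group

theorem swap {s t c d : F} (e2 : u * x * u' * Y.x2 s * (u * x * u')⁻¹ = Y.x6 c)
    (e6 : u * x * u' * Y.x6 t * (u * x * u')⁻¹ = Y.x2 d) : t * s + c * d = 0 := by
  have h : Y.x2 d * Y.x6 c = Y.x4 (t * s) * (Y.x6 c * Y.x2 d) := by
    rw [← cen4 m (t * s), ← e2, ← e6]
    calc _ = u * x * u' * (Y.x6 t * Y.x2 s) * (u * x * u')⁻¹ := by group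
      _ = _ := by rw [o62_spec]; group
  rw [o62_spec, Y.p4.mul', right_eq_mul] at h
  exact Y.p4.inj _ h

end mu

theorem wa4 (f : F) : Y.wa * Y.x4 f * Y.wa⁻¹ = Y.x4 f := by
  obtain ⟨u, x, u', m, e⟩ := Y.ma
  exact e ▸ cen4 m f

theorem wa2 (s : F) : Y.wa * Y.x2 s * Y.wa⁻¹ = Y.x6 (-s) := by
  obtain ⟨c, e2⟩ := (Y.p6.mem _).1 (U_cj Y.aa (Y.p2.m s))
  obtain ⟨u, x, u', m, e⟩ := Y.ma
  have := swap (Y := Y) m (s := s) (t := 1) (c := c) (d := 1) (e ▸ e2) (e ▸ rfl)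
  rw [e2, show c = -s by linear_combination this]

/-- an element acting as the scalar `t` on `U 2`, `U 3`, `U 5`, `U 6` -/
theorem exists_l {t : F} (ht : t ≠ 0) : ∃ l, (∀ a, l * Y.x1 a * l⁻¹ = Y.x1 a) ∧ ∀ {g s z y u}, Y.Co g s z y u →
    Y.Co (l * g * l⁻¹) (t * s) (t • z) (t • y) (t * u) := by
  have hh : Acts A.U (Y.fb (dS t ht) * (Y.wa * Y.fb (dS t ht) * Y.wa⁻¹)) 1 :=
    mul_mem (mem_torus.2 (Y.tb t ht)) (Y.aa.conj_torus (mem_torus.2 (Y.tb t ht)))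
  have k : ∀ x, Y.fb (dS t ht) * (Y.wa * Y.fb (dS t ht) * Y.wa⁻¹) * x *
      (Y.fb (dS t ht) * (Y.wa * Y.fb (dS t ht) * Y.wa⁻¹))⁻¹ = Y.fb (dS t ht) * (Y.wa * (Y.fb (dS t ht) *
        (Y.wa⁻¹ * x * Y.wa) * (Y.fb (dS t ht))⁻¹) * Y.wa⁻¹) * (Y.fb (dS t ht))⁻¹ := fun x => by group
  generalize Y.fb (dS t ht) * (Y.wa * Y.fb (dS t ht) * Y.wa⁻¹) = l at hh k
  have e2 : ∀ s, l * Y.x2 s * l⁻¹ = Y.x2 (t * s) := fun s => by
    rw [k, show Y.wa⁻¹ * Y.x2 s * Y.wa = Y.x6 s by rw [x2]; group, h6, ← x2, h2]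
    congr 1; field_simp
  have e3 : ∀ s, l * Y.x3 s * l⁻¹ = Y.x3 (t • s) := fun s => by
    rw [k, show Y.wa⁻¹ * Y.x3 s * Y.wa = Y.x5 s by rw [x3]; group, h5, ← x3, Y.cen3 _ (Y.p3.m _)]
  have e5 : ∀ s, l * Y.x5 s * l⁻¹ = Y.x5 (t • s) := fun s => by
    rw [k, Y.cen3 _ (Y.aa.inv_conj_mem (Y.p5.m s)), ← Y.h5 ht]; group
  have e6 : ∀ s, l * Y.x6 s * l⁻¹ = Y.x6 (t * s) := fun s => by
    rw [k, show Y.wa⁻¹ * Y.x6 s * Y.wa = Y.x2 (-s) by rw [← neg_neg s, ← wa2, neg_neg]; group, h2, wa2, h6]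
    congr 1; field_simp
  exact ⟨l, fun a => by rw [Y.tor1 hh ht (by rw [e6, mul_one]) (e5 a), inv_smul_smul₀ ht],
    fun c => c.tor hh (e2 _) (e3 _) (e5 _) (e6 _)⟩

theorem g2_smul (a z : J) (t : F) : Y.g2 a (t • z) = t * Y.g2 a z := by
  by_cases ht : t = 0
  · rw [ht, zero_smul, zero3, zero_mul]
  obtain ⟨l, h1, h2⟩ := Y.exists_l ht
  have := (((h2 (Y.co3 z)).u a).uniq (h2 (Y.c3 a z)) (by nth_rewrite 1 2 [← h1 a]; group)).1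
  simpa [(Y.zero5 a).1, (Y.zero6 a).1] using this

theorem e_smul (a y : J) (t : F) : Y.e2 a (t • y) = t * Y.e2 a y ∧ Y.e3 a (t • y) = t • Y.e3 a y := by
  by_cases ht : t = 0
  · simp [ht, (Y.zero5 a).1, (Y.zero5 a).2.1]
  obtain ⟨l, h1, h2⟩ := Y.exists_l ht
  have := ((h2 (Y.co5 y)).u a).uniq (h2 (Y.c5 a y)) (by nth_rewrite 1 2 [← h1 a]; group)
  exact ⟨by simpa [Y.zero3, (Y.zero6 a).1] using this.1, by simpa [(Y.zero6 a).2.1] using this.2.1⟩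

theorem d_eq (a : J) (t : F) : Y.d2 a t = t * Y.d2 a 1 ∧ Y.d3 a t = t • Y.d3 a 1 := by
  by_cases ht : t = 0
  · simp [ht, (Y.zero6 a).1, (Y.zero6 a).2.1]
  obtain ⟨l, h1, h2⟩ := Y.exists_l ht
  have := ((h2 (Y.co6 1)).u a).uniq (h2 (Y.c6 a 1)) (by nth_rewrite 1 2 [← h1 a]; group)
  exact ⟨by simpa [Y.zero3, (Y.zero5 a).1] using this.1, by simpa [(Y.zero5 a).2.1] using this.2.1⟩

theorem exists_h {t : F} (ht : t ≠ 0) : ∃ l, (∀ a, l * Y.x1 a * l⁻¹ = Y.x1 (t • a)) ∧ ∀ {g s z y u},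
    Y.Co g s z y u → Y.Co (l * g * l⁻¹) (t * s) z (t⁻¹ • y) (t⁻¹ ^ 2 * u) :=
  ⟨_, fun a => by rw [Y.sm _ (inv_ne_zero ht), inv_inv], fun c => c.tor (Y.tb _ (inv_ne_zero ht))
    (by rw [h2, inv_inv]) (Y.cen3 _ (Y.p3.m _)) (Y.h5 _ _) (Y.h6 _ _)⟩

theorem smul_g2 (a z : J) (t : F) : Y.g2 (t • a) z = t * Y.g2 a z := by
  by_cases ht : t = 0
  · rw [ht, zero_smul, zero3', zero_mul]
  obtain ⟨l, h1, h2⟩ := Y.exists_h ht
  have := (((h2 (Y.co3 z)).u (t • a)).uniq (h2 (Y.c3 a z)) (by rw [← h1 a]; group)).1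
  simpa [(Y.zero5 _).1, (Y.zero6 _).1] using this

theorem smul_e3 (a y : J) (t : F) : Y.e3 (t • a) y = t • Y.e3 a y := by
  by_cases ht : t = 0
  · rw [ht, zero_smul, (Y.zero1' y).2.1, zero_smul]
  obtain ⟨l, h1, h2⟩ := Y.exists_h ht
  have := (((h2 (Y.co5 y)).u (t • a)).uniq (h2 (Y.c5 a y)) (by rw [← h1 a]; group)).2.1
  rw [mul_zero, (Y.zero6 _).2.1, (Y.e_smul _ _ _).2, zero_add, add_zero] at this
  rw [← this, smul_inv_smul₀ ht]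

theorem smul_d (a : J) (t : F) : Y.d2 (t • a) 1 = t ^ 3 * Y.d2 a 1 ∧ Y.d3 (t • a) 1 = t ^ 2 • Y.d3 a 1 := by
  by_cases ht : t = 0
  · simp [ht, (Y.zero1 1).1, (Y.zero1 1).2.1]
  obtain ⟨l, h1, h2⟩ := Y.exists_h ht
  have := ((h2 (Y.co6 1)).u (t • a)).uniq (h2 (Y.c6 a 1)) (by rw [← h1 a]; group)
  rw [smul_zero, (Y.zero5 _).1, (Y.zero5 _).2.1, zero3, (Y.d_eq _ _).1, (Y.d_eq _ _).2] at this
  refine ⟨?_, ?_⟩
  · have h := this.1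
    field_simp at h
    linear_combination h
  · rw [← this.2.1, add_zero, zero_add, smul_smul, show t ^ 2 * (t⁻¹ ^ 2 * 1) = 1 by field_simp, one_smul]

theorem add_g2 (a b z : J) : Y.g2 (a + b) z = Y.g2 a z + Y.g2 b z := by
  have := ((Y.c3 (a + b) z).uniq ((Y.c3 b z).u a) (by rw [Y.p1.add]; group)).1
  rw [(Y.zero5 _).1, (Y.zero6 _).1] at this
  linear_combination this

theorem g2_add (a z z' : J) : Y.g2 a (z + z') = Y.g2 a z + Y.g2 a z' :=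
  ((Y.c3 a (z + z')).uniq ((Y.c3 a z).mul (Y.c3 a z')) (by rw [Y.p3.add]; group)).1

theorem add_e3 (a b y : J) : Y.e3 (a + b) y = Y.e3 a y + Y.e3 b y := by
  have := ((Y.c5 (a + b) y).uniq ((Y.c5 b y).u a) (by rw [Y.p1.add]; group)).2.1
  rw [(Y.zero6 a).2.1, add_zero] at this
  rw [this, add_comm]

theorem e3_add (a y y' : J) : Y.e3 a (y + y') = Y.e3 a y + Y.e3 a y' :=
  ((Y.c5 a (y + y')).uniq ((Y.c5 a y).mul (Y.c5 a y')) (by rw [Y.p5.add]; group)).2.1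

theorem D (a b : J) : Y.d2 (a + b) 1 = Y.d2 b 1 + Y.g2 a (Y.d3 b 1) + Y.e2 a (-b) + Y.d2 a 1 ∧
    Y.d3 (a + b) 1 = Y.d3 b 1 + Y.e3 a (-b) + Y.d3 a 1 := by
  have := (Y.c6 (a + b) 1).uniq ((Y.c6 b 1).u a) (by rw [Y.p1.add]; group)
  rw [Y.d5_eq b, one_smul] at this
  exact ⟨this.1, this.2.1⟩

theorem o53_eq (y z : J) : Y.o53 y z = Y.g2 y z := by
  have h : Y.wb * Y.x3 z * Y.wb⁻¹ = Y.x3 z := Y.w ▸ Y.cen3 _ (Y.p3.m z)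
  refine Y.p4.eq (mul_right_cancel ((Y.o53_spec y z).symm.trans ?_))
  rw [x4, ← r13, commutatorElement_def, x5]
  nth_rewrite 1 [← h]
  nth_rewrite 4 [← h]
  group

/-- the trace form -/
noncomputable def T : J →ₗ[F] J →ₗ[F] F :=
  LinearMap.mk₂ F Y.g2 Y.add_g2 (fun t a z => Y.smul_g2 a z t) Y.g2_add fun t a z => Y.g2_smul a z t

/-- the cross product -/
noncomputable def cr : J →ₗ[F] J →ₗ[F] J :=
  -LinearMap.mk₂ F Y.e3 Y.add_e3 (fun t a z => Y.smul_e3 a z t) Y.e3_add fun t a z => (Y.e_smul a z t).2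

/-- the norm -/
noncomputable def N (a : J) : F := Y.d2 a 1

/-- the adjoint -/
noncomputable def sh (a : J) : J := Y.d3 a 1

theorem g2_eq (a z : J) : Y.g2 a z = Y.T a z := rfl

theorem e3_eq (a y : J) : Y.e3 a y = -Y.cr a y := (neg_neg _).symm

theorem d2_eq (a : J) (t : F) : Y.d2 a t = t * Y.N a := (Y.d_eq a t).1

theorem d3_eq (a : J) (t : F) : Y.d3 a t = t • Y.sh a := (Y.d_eq a t).2

theorem sh_smul (t : F) (a : J) : Y.sh (t • a) = t ^ 2 • Y.sh a := (Y.smul_d a t).2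

theorem N_smul (t : F) (a : J) : Y.N (t • a) = t ^ 3 * Y.N a := (Y.smul_d a t).1

theorem sh_add (a b : J) : Y.sh (a + b) = Y.sh a + Y.sh b + Y.cr a b := by
  rw [sh, (Y.D a b).2, e3_eq, map_neg, neg_neg, sh, sh]; abel

theorem cr_comm (a b : J) : Y.cr a b = Y.cr b a := by
  have := Y.sh_add a b
  rw [add_comm a, sh_add, add_comm (Y.sh b)] at this
  exact (add_left_cancel this).symm

theorem cr_self (a : J) : Y.cr a a = (2 : F) • Y.sh a := by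
  have := Y.sh_add a a
  rw [← two_smul F a, sh_smul] at this
  linear_combination (norm := module) -this

theorem T_cr (a y z : J) : Y.T y (Y.cr a z) = Y.T z (Y.cr a y) := by
  have := (Y.c5 a y).comm (Y.c5 a z) (by
    calc _ = Y.x1 a * (Y.x5 y * Y.x5 z) * (Y.x1 a)⁻¹ := by group
      _ = _ := by rw [Y.p5.mul, add_comm, Y.p5.add]; group)
  simpa [o53_eq, g2_eq, e3_eq] using this

theorem e2_eq (a y : J) : Y.e2 a y = -Y.T y (Y.sh a) := by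
  have := (Y.c5 a y).comm (Y.c6 a 1) (by
    calc _ = Y.x1 a * (Y.x5 y * Y.x6 1) * (Y.x1 a)⁻¹ := by group
      _ = _ := by rw [lc Y.lng (Y.p5.m y) (Y.p6.m 1)]; group)
  simp only [o53_eq, g2_eq, e3_eq, d5_eq, d3_eq, one_smul, map_neg, LinearMap.neg_apply, Y.T_cr a a y, cr_self,
    map_smul, smul_eq_mul] at this
  linear_combination -this

theorem N_add (a b : J) : Y.N (a + b) = Y.N a + Y.N b + Y.T a (Y.sh b) + Y.T b (Y.sh a) := by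
  rw [N, (Y.D a b).1, e2_eq, map_neg, LinearMap.neg_apply, g2_eq, N, N, sh, sh]; ring

theorem Co.u' {Y : Hy A F J} {g : G} {s : F} {z y : J} {t : F} (h : Y.Co g s z y t) (a : J) :
    Y.Co (Y.x1 a * g * (Y.x1 a)⁻¹) (s + Y.T a z - Y.T y (Y.sh a) + t * Y.N a) (z - Y.cr a y + t • Y.sh a)
      (y - t • a) t :=
  (h.u a).congr (by rw [e2_eq, d2_eq, g2_eq]; ring) (by rw [e3_eq, d3_eq, sub_eq_add_neg])
    (by rw [d5_eq, sub_eq_add_neg]) rfl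

end Hy

end H73.FS6
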