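import Mathlib
import Cfsg.Agent.Lib.FS6.Dz
import Cfsg.Agent.Lib.FS6.Long

/-! Finite Moufang hexagons: the short root group as a vector space.  See `blueprint/FS6/README.md`. -/

set_option autoImplicit false
set_option linter.unusedSectionVars false

open Matrix H24 H63.St H73.FW H80.FS6 H80.FS6.W6
open H52.FW (M2 wS dS Act)
open scoped MatrixGroups commutatorElement

namespace H73.FS6

universe u

namespace Mod

variable {G : Type u} [Group G] {A : W6 G} {F : Type*} [Field F] (B : Hb A F)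

open Classical in
/-- the action of the field on the short root group -/
noncomputable def sm (t : F) (g : G) : G :=
  if ht : t = 0 then 1 else (B.fb (dS t ht))⁻¹ * g * B.fb (dS t ht)

theorem eqns_Mod : True := by
  have := @sm.eq_1.{0, 0}
  trivial

theorem sm_zero (g : G) : sm B 0 g = 1 := dif_pos rfl

theorem sm_ne {t : F} (ht : t ≠ 0) (g : G) : sm B t g = (B.fb (dS t ht))⁻¹ * g * B.fb (dS t ht) := dif_neg ht

theorem d_one : dS (1 : F) one_ne_zero = 1 := by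
  ext i j
  fin_cases i <;> fin_cases j <;> simp [dS, H64.SL2.coe_mk]

theorem sm_mem (t : F) {g : G} (hg : g ∈ A.U 1) : sm B t g ∈ A.U 1 := by
  by_cases ht : t = 0
  · rw [ht, sm_zero]; exact one_mem _
  · rw [sm_ne B ht]
    refine ((B.tb t ht) 1 _).2 ?_
    simpa [mul_assoc] using hg

theorem sm_one (g : G) : sm B 1 g = g := by simp [sm_ne B one_ne_zero, d_one]

theorem sm_one' (t : F) : sm B t 1 = 1 := by
  by_cases ht : t = 0
  · rw [ht, sm_zero]
  · simp [sm_ne B ht]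

theorem sm_mul' (t : F) (g h : G) : sm B t (g * h) = sm B t g * sm B t h := by
  by_cases ht : t = 0
  · simp [ht, sm_zero]
  · simp [sm_ne B ht, mul_assoc]

theorem sm_mul (s t : F) (g : G) : sm B (s * t) g = sm B s (sm B t g) := by
  by_cases hs : s = 0
  · rw [hs, zero_mul, sm_zero, sm_zero]
  by_cases ht : t = 0
  · rw [ht, mul_zero, sm_zero, sm_one']
  rw [mul_comm, sm_ne B (mul_ne_zero ht hs), sm_ne B hs, sm_ne B ht, NF.d_mul ht hs, map_mul]
  group

theorem sm_inv {t : F} (ht : t ≠ 0) (g : G) :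
    B.fb (dS t ht) * g * (B.fb (dS t ht))⁻¹ = sm B t⁻¹ g := by
  have := sm_mul B t⁻¹ t (B.fb (dS t ht) * g * (B.fb (dS t ht))⁻¹)
  rw [inv_mul_cancel₀ ht, sm_one, sm_ne B ht] at this
  rw [this]
  congr 1
  group

theorem wb_acts : Acts A.U B.wb (Equiv.subLeft 6) := by
  obtain ⟨u, u', m, e⟩ := B.mb
  rw [e]
  exact m.acts

theorem cj (L : A.Long) (t : F) {a : G} (ha : a ∈ A.U 1) :
    ∃ k ∈ A.S [2, 3, 4], B.x6 t * a * (B.x6 t)⁻¹ = a * k * (B.wb * sm B t a * B.wb⁻¹) := by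
  by_cases ht : t = 0
  · exact ⟨1, one_mem _, by simp [ht, sm_zero, B.p6.zero]⟩
  have hu : B.fb (loT (-t⁻¹)) ∈ A.U 0 := (B.X0 _).2 ⟨_, rfl⟩
  have e : B.fb (loT (-t⁻¹)) * B.x6 t * B.fb (loT (-t⁻¹)) = B.fb (dS t ht) * B.wb := by
    rw [← B.up, ← map_mul, ← map_mul, NF.mu_eq ht, map_mul, B.w]
  have e' : B.fb (dS t ht) * B.wb = B.wb * (B.fb (dS t ht))⁻¹ := by
    rw [← B.w, ← map_mul, NF.d_w ht, map_mul, map_inv]
  obtain ⟨k, hk, h⟩ := th hu (u' := B.fb (loT (-t⁻¹))) ⟨hu, fun j hj y hy => L.cen 0 j rfl hj _ hu y hy⟩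
    (by rw [e]; simpa using (B.tb t ht).mul (wb_acts B)) (B.p6.m t) ha
  refine ⟨k, hk, ?_⟩
  rw [h, e, e', sm_ne B ht]
  group

theorem sm_add (L : A.Long) (s t : F) {a : G} (ha : a ∈ A.U 1) :
    sm B (s + t) a = sm B s a * sm B t a := by
  obtain ⟨k, hk, e⟩ := cj B L (s + t) ha
  obtain ⟨k1, hk1, e1⟩ := cj B L s ha
  obtain ⟨k2, hk2, e2⟩ := cj B L t ha
  have c : ∀ r, B.wb * sm B r a * B.wb⁻¹ ∈ A.U 5 := fun r => act (wb_acts B) (sm_mem B r ha) 5
  have hb := B.p6.m s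
  have hk3 : B.x6 s * k2 * (B.x6 s)⁻¹ ∈ A.S [2, 3, 4] := by
    refine conj_mem_of_XS hk2 fun r hr z hz => ?_
    simp only [Set.mem_ofPred_eq, List.mem_cons, List.not_mem_nil, or_false] at hr
    rcases hr with rfl | rfl | rfl
    · rw [cj_eq']
      exact mul_mem (inv_mem (mS (L.c4 2 rfl z hz _ hb))) (mS hz)
    · rw [lc L hb hz, mul_inv_cancel_right]; exact mS hz
    · rw [lc L hb hz, mul_inv_cancel_right]; exact mS hz
  suffices h : B.wb * sm B (s + t) a * B.wb⁻¹ =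
      B.wb * sm B s a * B.wb⁻¹ * (B.wb * sm B t a * B.wb⁻¹) by
    rwa [conj_mul, mul_left_inj, mul_right_inj] at h
  have c0 := c (s + t)
  have c1' := c s
  have c2 := c t
  generalize B.wb * sm B (s + t) a * B.wb⁻¹ = w at e c0 ⊢
  generalize B.wb * sm B s a * B.wb⁻¹ = w1 at e1 c1' ⊢
  generalize B.wb * sm B t a * B.wb⁻¹ = w2 at e2 c2 ⊢
  have e3 : a * k * w = a * k1 * w1 * (B.x6 s * k2 * (B.x6 s)⁻¹) * w2 := by
    rw [← e, ← e1, B.p6.add]
    calc _ = B.x6 s * (B.x6 t * a * (B.x6 t)⁻¹) * (B.x6 s)⁻¹ := by group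
      _ = B.x6 s * a * k2 * (w2 * (B.x6 s)⁻¹) := by rw [e2]; group
      _ = _ := by rw [lc L c2 (inv_mem hb)]; group
  generalize B.x6 s * k2 * (B.x6 s)⁻¹ = k3 at e3 hk3
  have e4 : w * (w1 * w2)⁻¹ = k⁻¹ * (k1 * (w1 * k3 * w1⁻¹)) := by
    rw [show w = (a * k)⁻¹ * (a * k * w) by group, e3]
    group
  exact mul_inv_eq_one.1 (sep (l := [2, 3, 4]) (l' := [5])
    (e4 ▸ mul_mem (inv_mem hk) (mul_mem hk1 (nrm c1' hk3))) (mS (mul_mem c0 (inv_mem (mul_mem c1' c2)))))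

end Mod

theorem exists_hy {G : Type u} [Group G] [Finite G] {A : W6 G} (L : A.Long) {F : Type*} [Field F] (B : Hb A F) :
    ∃ (J : Type u) (_ : AddCommGroup J) (_ : Module F J) (_ : Finite J), Nonempty (Hy A F J) := by
  letI : CommGroup (A.U 1) :=
    { (inferInstance : Group (A.U 1)) with mul_comm := fun a b => Subtype.ext (L.ab 1 _ a.2 _ b.2).eq }
  letI : Module F (Additive (A.U 1)) :=
    { smul := fun t a => Additive.ofMul ⟨Mod.sm B t a.toMul, Mod.sm_mem B t a.toMul.2⟩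
      one_smul := fun a => Subtype.ext (Mod.sm_one B _)
      mul_smul := fun s t a => Subtype.ext (Mod.sm_mul B s t _)
      smul_zero := fun t => Subtype.ext (Mod.sm_one' B t)
      smul_add := fun t a b => Subtype.ext (Mod.sm_mul' B t _ _)
      add_smul := fun s t a => Subtype.ext (Mod.sm_add B L s t a.toMul.2)
      zero_smul := fun a => Subtype.ext (Mod.sm_zero B _) }
  exact ⟨Additive (A.U 1), inferInstance, inferInstance, inferInstance,
    ⟨{ B with
      lng := L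
      x1 := fun a => (a.toMul : G)
      p1 := ⟨fun _ _ => rfl, fun g => ⟨fun h => ⟨Additive.ofMul ⟨g, h⟩, rfl⟩, by
        rintro ⟨a, rfl⟩; exact a.toMul.2⟩, fun a e => Subtype.ext e⟩
      sm := fun t ht a => Mod.sm_inv B ht _ }⟩⟩

end H73.FS6
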