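import Mathlib
import Cfsg.Agent.Lib.FS6.Lin

/-! Finite Moufang hexagons: the hexagonal system.  See `blueprint/FS6/README.md`. -/

set_option autoImplicit false
set_option linter.unusedSectionVars false

open Matrix H24 H63.St H73.FW H80.FS6 H80.FS6.W6
open H52.FW (M2 wS dS Act)
open scoped MatrixGroups commutatorElement

namespace H73.FS6

namespace Hy

variable {G : Type*} [Group G] {A : W6 G} {F J : Type*} [Field F] [AddCommGroup J] [Module F J] {Y : Hy A F J}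

theorem Co.top2 {g u : G} {s s' : F} {z y : J} {t : F} (h : Y.Co g s z y t) (hu : u ∈ A.U 7)
    (e : u * g * u⁻¹ = Y.x2 s') : s = s' := by
  have h1 : (Y.x2 s')⁻¹ * g ∈ A.S [3, 4, 5, 6] := by
    rw [show (Y.x2 s')⁻¹ * g = ⁅(Y.x2 s')⁻¹, u⁻¹⁆ by rw [commutatorElement_def, inv_inv, ← e]; group]
    exact cmS (inv_mem (Y.p2.m _)) (inv_mem hu) _
  refine Y.p2.eq (inv_mul_eq_one.1 (sep (l := [2]) (mS (mul_mem (inv_mem (Y.p2.m _)) (Y.p2.m _)))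
    (l' := [3, 4, 5, 6]) ?_))
  rw [show (Y.x2 s)⁻¹ * Y.x2 s' = (Y.x2 s)⁻¹ * g * ((Y.x2 s')⁻¹ * g)⁻¹ by group]
  exact mul_mem h.fst (inv_mem h1)

theorem Co.top3 {g u : G} {s : F} {z z' y : J} {t : F} (h : Y.Co g s z y t) (hu : u ∈ A.U 7)
    (e : u * g * u⁻¹ = Y.x3 z') : s = 0 ∧ z = z' := by
  have h1 : (Y.x3 z')⁻¹ * g ∈ A.S [4, 5, 6] := by
    rw [show (Y.x3 z')⁻¹ * g = ⁅(Y.x3 z')⁻¹, u⁻¹⁆ by rw [commutatorElement_def, inv_inv, ← e]; group]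
    exact cmS (inv_mem (Y.p3.m _)) (inv_mem hu) _
  have h2 : s = 0 := Y.p2.inj _ (sep (l := [2]) (mS (Y.p2.m _)) (l' := [3, 4, 5, 6]) (by
    rw [show Y.x2 s = Y.x3 z' * ((Y.x3 z')⁻¹ * g) * ((Y.x2 s)⁻¹ * g)⁻¹ by group]
    exact mul_mem (mul_mem (mS (Y.p3.m _)) (mono h1)) (inv_mem h.fst)))
  have h3 := h.snd
  rw [h2, Y.p2.zero, inv_one, one_mul] at h3
  refine ⟨h2, Y.p3.eq (inv_mul_eq_one.1 (sep (l := [3]) (mS (mul_mem (inv_mem (Y.p3.m _)) (Y.p3.m _)))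
    (l' := [4, 5, 6]) ?_))⟩
  rw [show (Y.x3 z)⁻¹ * Y.x3 z' = (Y.x3 z)⁻¹ * g * ((Y.x3 z')⁻¹ * g)⁻¹ by group]
  exact mul_mem h3 (inv_mem h1)

variable (Y)

/-- the inverse -/
noncomputable def iv (a : J) : J := (Y.N a)⁻¹ • Y.sh a

/-- the action of a reflection -/
noncomputable def rh (a y : J) : J := Y.T y (Y.sh a) • Y.iv a - Y.cr a y

theorem N_neg (a : J) : Y.N (-a) = -Y.N a := by rw [← neg_one_smul F a, N_smul]; ring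

theorem sh_neg (a : J) : Y.sh (-a) = Y.sh a := by rw [← neg_one_smul F a, sh_smul, neg_one_sq, one_smul]

theorem sh_zero : Y.sh 0 = 0 := (Y.zero1 1).2.1

theorem N_zero : Y.N 0 = 0 := (Y.zero1 1).1

theorem iv_neg (a : J) : Y.iv (-a) = -Y.iv a := by rw [iv, N_neg, sh_neg, inv_neg, neg_smul, iv]

theorem rh_neg (a y : J) : Y.rh a (-y) = -Y.rh a y := by
  simp only [rh, map_neg, LinearMap.neg_apply, neg_smul]; abel

theorem neg_rh (a y : J) : Y.rh (-a) y = -Y.rh a y := by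
  simp only [rh, iv_neg, sh_neg, map_neg, LinearMap.neg_apply, smul_neg]; abel

section mu
variable {Y} {u u' : G} {a : J} (m : Mu A 1 u (Y.x1 a) u')
include m

theorem mi : Mu A 1 u'⁻¹ (Y.x1 (-a)) u⁻¹ := Y.p1.neg a ▸ m.inv

theorem mi_eq : u'⁻¹ * Y.x1 (-a) * u⁻¹ = (u * Y.x1 a * u')⁻¹ := by rw [← Y.p1.neg]; group

theorem m6' (t : F) : u * (Y.x1 a * Y.x6 t * (Y.x1 a)⁻¹) * u⁻¹ = u * Y.x1 a * u' * Y.x6 t * (u * Y.x1 a * u')⁻¹ := by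
  rw [mul_assoc _ u', lc Y.lng m.r (Y.p6.m t)]; group

theorem m6 (t : F) : u * Y.x1 a * u' * Y.x6 t * (u * Y.x1 a * u')⁻¹ = Y.x2 (t * Y.N a) := by
  obtain ⟨s, e⟩ := (Y.p2.mem _).1 (U_cj m.acts (Y.p6.m t))
  rw [e, ← (Y.c6 a t).top2 m.l ((m6' m t).trans e), d2_eq]

theorem n_ne : Y.N a ≠ 0 := fun h => by
  have := m6 m 1
  rw [h, mul_zero, Y.p2.zero, conj_eq_one_iff] at this
  exact one_ne_zero (Y.p6.inj _ this)

theorem m2 (s : F) : u * Y.x1 a * u' * Y.x2 s * (u * Y.x1 a * u')⁻¹ = Y.x6 (-(s / Y.N a)) := by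
  obtain ⟨c, e⟩ := (Y.p6.mem _).1 (U_cj m.acts (Y.p2.m s))
  have := swap m e (m6 m 1)
  have h := n_ne m
  rw [e]
  congr 1
  field_simp
  linear_combination this

theorem m5 (y : J) : u * Y.x1 a * u' * Y.x5 y * (u * Y.x1 a * u')⁻¹ = Y.x3 (Y.rh a y) := by
  obtain ⟨z, e⟩ := (Y.p3.mem _).1 (U_cj m.acts (Y.p5.m y))
  obtain ⟨τ, e'⟩ := (Y.p6.mem _).1 (S_one (cmS m.r (Y.p5.m y) [6]))
  have := (((Y.co6 τ).mul (Y.co5 y)).u' a).top3 m.l (Eq.trans (by rw [← e', ← cj_eq]; group) e)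
  simp only [add_zero, zero_add, map_zero, zero_sub] at this
  have h := n_ne m
  rw [e, ← this.2, rh, iv, smul_smul, show Y.T y (Y.sh a) * (Y.N a)⁻¹ = τ by
    field_simp; linear_combination -this.1, sub_eq_neg_add]

theorem m3 (y : J) : u * Y.x1 a * u' * Y.x3 (Y.rh a y) * (u * Y.x1 a * u')⁻¹ = Y.x5 (-y) := by
  have := m5 (mi m) (-y)
  rw [mi_eq m, neg_rh, rh_neg, neg_neg] at this
  rw [← this]; group

theorem mm (i : ZMod 12) (hi : i ∈ ([2, 3, 5, 6] : List (ZMod 12))) (x : G) (hx : x ∈ A.U i) :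
    u * Y.x1 a * u' * (u * Y.x1 a * u') * x * (u * Y.x1 a * u' * (u * Y.x1 a * u'))⁻¹ = x⁻¹ := by
  have h := n_ne m
  rw [show ∀ M : G, M * M * x * (M * M)⁻¹ = M * (M * x * M⁻¹) * M⁻¹ from fun M => by group]
  simp only [List.mem_cons, List.not_mem_nil, or_false] at hi
  rcases hi with rfl | rfl | rfl | rfl
  · obtain ⟨s, rfl⟩ := (Y.p2.mem _).1 hx
    rw [m2 m, m6 m, Y.p2.neg]
    congr 1; field_simp
  · obtain ⟨y, e⟩ := (Y.p5.mem _).1 (U_cj m.acts hx)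
    have e1 : x = Y.x3 (Y.rh a (-y)) := by
      have := m3 m (-y)
      rw [neg_neg, ← e] at this
      simpa using this.symm
    rw [e, m5 m, e1, Y.p3.neg, rh_neg, neg_neg]
  · obtain ⟨s, rfl⟩ := (Y.p5.mem _).1 hx
    rw [m5 m, m3 m, Y.p5.neg]
  · obtain ⟨s, rfl⟩ := (Y.p6.mem _).1 hx
    rw [m6 m, m2 m, Y.p6.neg]
    congr 1; field_simp

theorem mm1 (b : J) : u * Y.x1 a * u' * (u * Y.x1 a * u') * Y.x1 b * (u * Y.x1 a * u' * (u * Y.x1 a * u'))⁻¹ =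
    Y.x1 b := by
  have hh : Acts A.U (u * Y.x1 a * u' * (u * Y.x1 a * u')) 1 :=
    (show Equiv.subLeft (2 * 1 + 6) * Equiv.subLeft (2 * 1 + 6) = (1 : Equiv.Perm (ZMod 12)) from
      Equiv.ext (by decide)) ▸ m.acts.mul m.acts
  rw [Y.tor1 hh (neg_ne_zero.2 one_ne_zero) ((mm m 6 (by decide) _ (Y.p6.m 1)).trans (Y.p6.neg 1))
    ((mm m 5 (by decide) _ (Y.p5.m b)).trans (Y.p5.neg b))]
  simp

end mu

theorem exists_e : ∃ e u u', Mu A 1 u (Y.x1 e) u' ∧ Y.wa = u * Y.x1 e * u' := by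
  obtain ⟨u, x, u', m, e⟩ := Y.ma
  obtain ⟨a, rfl⟩ := (Y.p1.mem x).1 m.m
  exact ⟨a, u, u', m, e⟩

/-- the base point -/
noncomputable def e : J := Y.exists_e.choose

theorem e_spec : ∃ u u', Mu A 1 u (Y.x1 Y.e) u' ∧ Y.wa = u * Y.x1 Y.e * u' := Y.exists_e.choose_spec

theorem N_e : Y.N Y.e = 1 := by
  obtain ⟨u, u', m, e⟩ := Y.e_spec
  have := m6 m 1
  rw [← e, one_mul] at this
  exact (Y.p2.eq this).symm

theorem rh_e (y : J) : Y.rh Y.e y = y := by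
  obtain ⟨u, u', m, e⟩ := Y.e_spec
  have := m5 m y
  rw [← e] at this
  exact (Y.p3.eq this).symm

theorem wa3 (z : J) : Y.wa * Y.x3 z * Y.wa⁻¹ = Y.x5 (-z) := by
  obtain ⟨u, u', m, e⟩ := Y.e_spec
  have := m3 m z
  rwa [← e, rh_e] at this

theorem ww1 (b : J) : Y.wa * Y.wa * Y.x1 b * (Y.wa * Y.wa)⁻¹ = Y.x1 b := by
  obtain ⟨u, u', m, e⟩ := Y.e_spec
  exact e ▸ mm1 m b

theorem T_symm (y z : J) : Y.T y z = Y.T z y := by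
  have h : Y.x3 y * Y.x5 (-z) = Y.x4 (Y.o53 y z) * (Y.x5 (-z) * Y.x3 y) := by
    rw [← wa3, ← Y.wa4 (Y.o53 y z), x3]
    calc _ = Y.wa * (Y.x5 y * Y.x3 z) * Y.wa⁻¹ := by group
      _ = _ := by rw [o53_spec]; group
  rw [o53_spec, Y.p4.mul', right_eq_mul] at h
  have := Y.p4.inj _ h
  rw [o53_eq, o53_eq, g2_eq, g2_eq, map_neg, LinearMap.neg_apply] at this
  linear_combination this

theorem wi2 (s : F) : Y.wa⁻¹ * Y.x2 s * Y.wa⁻¹⁻¹ = Y.x6 s := by rw [x2]; group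

theorem wi3 (s : J) : Y.wa⁻¹ * Y.x3 s * Y.wa⁻¹⁻¹ = Y.x5 s := by rw [x3]; group

theorem wi5 (s : J) : Y.wa⁻¹ * Y.x5 s * Y.wa⁻¹⁻¹ = Y.x3 (-s) := by
  nth_rewrite 1 [← neg_neg s]; rw [← wa3]; group

theorem wi6 (s : F) : Y.wa⁻¹ * Y.x6 s * Y.wa⁻¹⁻¹ = Y.x2 (-s) := by
  nth_rewrite 1 [← neg_neg s]; rw [← wa2]; group

section mu
variable {Y} {u u' : G} {a : J} (m : Mu A 1 u (Y.x1 a) u')
include m

theorem l_eq : u = Y.wa * Y.x1 (Y.iv a) * Y.wa⁻¹ := by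
  obtain ⟨c, e⟩ := (Y.p1.mem _).1 (U_cj (act_inv Y.aa) m.l)
  have h1 := (((Y.c6 a 1).ref (act_inv Y.aa) (Y.wi2 _) (Y.wi3 _) (Y.wi5 _) (Y.wi6 _)).u' c).uniq
    (Y.co6 (1 * Y.N a)) (by rw [← Y.wi2 (1 * Y.N a), ← m6 m, ← m6' m, ← e]; group)
  have h2 : Y.sh a = Y.N a • c := sub_eq_zero.1 h1.2.2.1
  rw [iv, h2, inv_smul_smul₀ (n_ne m), ← e]; group

theorem r_eq : u' = Y.wa * Y.x1 (Y.iv a) * Y.wa⁻¹ := by
  rw [← _root_.inv_inj, l_eq (mi m), iv_neg, ← Y.p1.neg]; group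

theorem m_iv : Mu A 1 (Y.wa⁻¹ * (u * Y.x1 a * u' * u' * (u * Y.x1 a * u')⁻¹) * Y.wa⁻¹⁻¹) (Y.x1 (Y.iv a))
    (Y.wa⁻¹ * Y.x1 a * Y.wa⁻¹⁻¹) := by
  have := m.lft.cj (act_inv Y.aa) (j := 1)
  rwa [show Y.wa⁻¹ * u * Y.wa⁻¹⁻¹ = Y.x1 (Y.iv a) by rw [l_eq m]; group] at this

theorem m_iv_eq : Y.wa⁻¹ * (u * Y.x1 a * u' * u' * (u * Y.x1 a * u')⁻¹) * Y.wa⁻¹⁻¹ * Y.x1 (Y.iv a) *
    (Y.wa⁻¹ * Y.x1 a * Y.wa⁻¹⁻¹) = Y.wa⁻¹ * (u * Y.x1 a * u') * Y.wa := by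
  rw [show Y.x1 (Y.iv a) = Y.wa⁻¹ * u * Y.wa by rw [l_eq m]; group]; group

theorem iv_iv : Y.iv (Y.iv a) = a := by
  have := r_eq (m_iv m)
  refine Y.p1.eq ?_
  rw [← ww1, show Y.x1 a = Y.wa * (Y.wa⁻¹ * Y.x1 a * Y.wa⁻¹⁻¹) * Y.wa⁻¹ by group, this]; group

theorem N_iv : Y.N (Y.iv a) = (Y.N a)⁻¹ := by
  have := m6 (m_iv m) 1
  rw [m_iv_eq m, show ∀ M : G, Y.wa⁻¹ * M * Y.wa * Y.x6 1 * (Y.wa⁻¹ * M * Y.wa)⁻¹ =
    Y.wa⁻¹ * (M * Y.x2 1 * M⁻¹) * Y.wa⁻¹⁻¹ from fun M => by rw [x2]; group, m2 m, wi6] at this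
  simpa using (Y.p2.eq this).symm

theorem rh_iv (w : J) : Y.rh (Y.iv a) (Y.rh a w) = w := by
  have := m5 (m_iv m) (Y.rh a w)
  rw [m_iv_eq m, show ∀ (M : G) y, Y.wa⁻¹ * M * Y.wa * Y.x5 y * (Y.wa⁻¹ * M * Y.wa)⁻¹ =
    Y.wa⁻¹ * (M * Y.x3 y * M⁻¹) * Y.wa⁻¹⁻¹ from fun M y => by rw [x3]; group, m3 m, wi5, neg_neg] at this
  exact (Y.p3.eq this).symm

theorem m1 (b : J) : u * Y.x1 a * u' * Y.x1 b * (u * Y.x1 a * u')⁻¹ =
    Y.wa * Y.x1 ((Y.N a)⁻¹ • Y.rh a b) * Y.wa⁻¹ := by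
  have hh : Acts A.U (Y.wa⁻¹ * (u * Y.x1 a * u')) 1 :=
    (show Equiv.subLeft 8 * Equiv.subLeft (2 * 1 + 6) = (1 : Equiv.Perm (ZMod 12)) from
      Equiv.ext (by decide)) ▸ (act_inv Y.aa).mul m.acts
  have k : ∀ M x : G, Y.wa⁻¹ * M * x * (Y.wa⁻¹ * M)⁻¹ = Y.wa⁻¹ * (M * x * M⁻¹) * Y.wa⁻¹⁻¹ := fun M x => by group
  rw [← Y.tor1 hh (n_ne m) (by rw [k, m6 m, wi2, one_mul]) (by rw [k, m5 m, wi3])]
  group

end mu

theorem ex {a : J} (h : a ≠ 0) : ∃ u u', Mu A 1 u (Y.x1 a) u' := exists_mu (Y.p1.m a) (Y.p1.ne h)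

theorem sh_e : Y.sh Y.e = Y.e := by
  obtain ⟨u, u', m, e⟩ := Y.e_spec
  have h := l_eq (m_iv m)
  rw [iv_iv m, ← e, r_eq m] at h
  have h1 : Y.x1 (Y.iv Y.e) = Y.x1 Y.e := by
    calc _ = Y.wa⁻¹ * (Y.wa⁻¹ * (Y.wa * (Y.wa * Y.x1 (Y.iv Y.e) * Y.wa⁻¹) * Y.wa⁻¹) * Y.wa⁻¹⁻¹) * Y.wa := by group
      _ = _ := by rw [h]; group
  have h2 := Y.p1.eq h1
  rwa [iv, N_e, inv_one, one_smul] at h2

/-- the hexagonal system -/
noncomputable def hs : HS F J where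
  N := Y.N
  sh := Y.sh
  T := Y.T
  cr := Y.cr
  e := Y.e
  T_symm := Y.T_symm
  sh_smul := Y.sh_smul
  sh_add := Y.sh_add
  N_smul := Y.N_smul
  N_add := Y.N_add
  T_cr := Y.T_cr
  N_ne a h := by
    obtain ⟨u, u', m⟩ := Y.ex h
    exact n_ne m
  N_e := Y.N_e
  sh_e := Y.sh_e
  cr_e y := by
    have := Y.rh_e y
    rw [rh, iv, N_e, sh_e, inv_one, one_smul, T_symm] at this
    linear_combination (norm := module) -this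
  sh_sh a := by
    by_cases h : a = 0
    · rw [h, sh_zero, sh_zero, smul_zero]
    obtain ⟨u, u', m⟩ := Y.ex h
    have h1 := iv_iv m
    have h2 := n_ne m
    rw [iv, N_iv m, inv_inv, iv, sh_smul, smul_smul, show Y.N a * (Y.N a)⁻¹ ^ 2 = (Y.N a)⁻¹ by field_simp,
      inv_smul_eq_iff₀ h2] at h1
    exact h1
  N_sh a := by
    by_cases h : a = 0
    · rw [h, sh_zero, N_zero, zero_pow two_ne_zero]
    obtain ⟨u, u', m⟩ := Y.ex h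
    have h1 := N_iv m
    have h2 := n_ne m
    rw [iv, N_smul] at h1
    field_simp at h1
    exact h1
  rr a h c w y hc hy := by
    obtain ⟨u, u', m⟩ := Y.ex h
    have := rh_iv m w
    rw [rh, iv_iv m] at this
    rw [hy, hc]
    exact this

end Hy

theorem exists_hz {G : Type*} [Group G] {A : W6 G} {F J : Type*} [Field F] [AddCommGroup J] [Module F J]
    (Y : Hy A F J) : Nonempty (Hz A F J) := by
  have k : ∀ a, a ≠ 0 → Mu A 1 (Y.wa * Y.x1 (Y.iv a) * Y.wa⁻¹) (Y.x1 a) (Y.wa * Y.x1 (Y.iv a) * Y.wa⁻¹) :=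
    fun a h => by
      obtain ⟨u, u', m⟩ := Y.ex h
      nth_rewrite 1 [← Hy.l_eq m]
      rwa [← Hy.r_eq m]
  refine ⟨⟨Y, Y.hs, _, fun _ => rfl, k, ?_, fun a h t => ?_, fun a h => Hy.m1 (k a h), fun a h => Hy.mm1 (k a h),
    fun a h => Hy.mm (k a h)⟩⟩
  · obtain ⟨u, u', m, e⟩ := Y.e_spec
    refine Eq.trans ?_ e.symm
    nth_rewrite 1 [Hy.l_eq m]
    rw [Hy.r_eq m]
    rfl
  · exact (Hy.m6 (k a h) t).trans (by rw [mul_comm t]; rfl)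

end H73.FS6
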